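import Mathlib.GroupTheory.Solvable
import Mathlib.Data.Fintype.Powerset
import Mathlib.Algebra.Group.Subgroup.Finite
import Mathlib.GroupTheory.PGroup
import Mathlib.GroupTheory.Index
import Mathlib.GroupTheory.Perm.Cycle.Type

/-!
# Solvable groups with a core-free maximal subgroup
-/

set_option autoImplicit false
set_option linter.style.haveILetI false

namespace CfsgLib.RealChar

open Subgroup

variable {Q : Type*} [Group Q] [Finite Q]

/-- A nontrivial finite solvable group has a minimal normal subgroup; it is abelian of prime power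
order. Relative version inside a normal subgroup containing `N`. -/
theorem exists_chief_factor [Group.IsSolvable Q] (N : Subgroup Q) [N.Normal] (hN : N ≠ ⊤) :
    ∃ (K : Subgroup Q) (q k : ℕ), K.Normal ∧ N < K ∧
      (∀ R : Subgroup Q, R.Normal → N < R → R ≤ K → R = K) ∧
      (∀ a ∈ K, ∀ b ∈ K, a * b * a⁻¹ * b⁻¹ ∈ N) ∧ q.Prime ∧ N.relIndex K = q ^ k := by
  classical
  haveI : Finite (Subgroup Q) := Finite.of_injective (fun R : Subgroup Q => (R : Set Q)) SetLike.coe_injective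
  obtain ⟨K, ⟨hKn, hNK⟩, hKmin⟩ := Set.Finite.exists_minimalFor id
    {K : Subgroup Q | K.Normal ∧ N < K} (Set.toFinite _) ⟨⊤, inferInstance, lt_top_iff_ne_top.2 hN⟩
  haveI := hKn
  have hmin : ∀ R : Subgroup Q, R.Normal → N < R → R ≤ K → R = K :=
    fun R hR hNR hRK => le_antisymm hRK (hKmin ⟨hR, hNR⟩ hRK)
  set Kb := K.map (QuotientGroup.mk' N) with hKb
  haveI : Kb.Normal := hKn.map _ (QuotientGroup.mk'_surjective N)
  have hKb1 : Kb ≠ ⊥ := by
    rw [hKb, ne_eq, Subgroup.map_eq_bot_iff, QuotientGroup.ker_mk']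
    exact not_le_of_gt hNK
  have hcomap : Kb.comap (QuotientGroup.mk' N) = K := by
    rw [hKb, Subgroup.comap_map_eq_self]
    rw [QuotientGroup.ker_mk']
    exact hNK.le
  -- minimality in the quotient
  have hminb : ∀ R : Subgroup (Q ⧸ N), R.Normal → R ≠ ⊥ → R ≤ Kb → R = Kb := by
    intro R hR hR1 hRK
    have hsur := QuotientGroup.mk'_surjective N
    have h1 : R.comap (QuotientGroup.mk' N) = K := by
      refine hmin _ (hR.comap _) (lt_of_le_of_ne ?_ fun h => hR1 ?_)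
        ((Subgroup.comap_mono hRK).trans hcomap.le)
      · intro x hx
        rw [Subgroup.mem_comap, show QuotientGroup.mk' N x = 1 from (QuotientGroup.eq_one_iff x).2 hx]
        exact one_mem _
      · rw [← Subgroup.map_comap_eq_self_of_surjective hsur R, ← h, Subgroup.map_eq_bot_iff,
          QuotientGroup.ker_mk']
    rw [← Subgroup.map_comap_eq_self_of_surjective hsur R, h1]
  have hcomm : ∀ a ∈ Kb, ∀ b ∈ Kb, a * b = b * a := by
    have hlt : ⁅Kb, Kb⁆ < Kb := Group.IsSolvable.commutator_lt_of_ne_bot hKb1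
    have h1 : ⁅Kb, Kb⁆ = ⊥ := by
      by_contra h
      exact hlt.ne (hminb _ inferInstance h hlt.le)
    intro a ha b hb
    have h2 := Subgroup.commutator_mem_commutator ha hb
    rw [h1, Subgroup.mem_bot, commutatorElement_def] at h2
    calc a * b = a * b * a⁻¹ * b⁻¹ * (b * a) := by group
      _ = b * a := by rw [h2, one_mul]
  have hcard : 1 < Nat.card Kb := by
    haveI := (Subgroup.nontrivial_iff_ne_bot Kb).2 hKb1
    exact Finite.one_lt_card
  obtain ⟨q, hq, hqd⟩ := Nat.exists_prime_and_dvd hcard.ne'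
  haveI := Fact.mk hq
  obtain ⟨x, hx⟩ := exists_prime_orderOf_dvd_card' q hqd
  let R : Subgroup (Q ⧸ N) :=
    { carrier := {y | y ∈ Kb ∧ y ^ q = 1}
      one_mem' := ⟨one_mem _, one_pow _⟩
      mul_mem' := fun {u v} hu hv => ⟨mul_mem hu.1 hv.1, by
        rw [(show Commute u v from hcomm u hu.1 v hv.1).mul_pow, hu.2, hv.2, one_mul]⟩
      inv_mem' := fun {u} hu => ⟨inv_mem hu.1, by rw [inv_pow, hu.2, inv_one]⟩ }
  have hR : R = Kb := by
    refine hminb R ⟨fun u hu g => ⟨Subgroup.Normal.conj_mem inferInstance u hu.1 g, by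
      rw [conj_pow, hu.2, mul_one, mul_inv_cancel]⟩⟩ (fun h => ?_) fun u hu => hu.1
    have hxR : (x : Q ⧸ N) ∈ R := ⟨x.2, by
      rw [← SubgroupClass.coe_pow, ← hx, pow_orderOf_eq_one, OneMemClass.coe_one]⟩
    rw [h, Subgroup.mem_bot] at hxR
    have : x = 1 := Subtype.ext hxR
    rw [this, orderOf_one] at hx
    exact hq.one_lt.ne hx
  have hp : IsPGroup q Kb := fun u => ⟨1, Subtype.ext (by
    rw [SubgroupClass.coe_pow, pow_one, OneMemClass.coe_one]
    exact ((SetLike.ext_iff.1 hR (u : Q ⧸ N)).2 u.2).2)⟩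
  obtain ⟨k, hk⟩ := IsPGroup.iff_card.1 hp
  refine ⟨K, q, k, hKn, hNK, hmin, fun a ha b hb => ?_, hq, ?_⟩
  · rw [← QuotientGroup.eq_one_iff]
    have h := hcomm _ (Subgroup.mem_map_of_mem (QuotientGroup.mk' N) ha) _
      (Subgroup.mem_map_of_mem (QuotientGroup.mk' N) hb)
    rw [QuotientGroup.mk'_apply, QuotientGroup.mk'_apply] at h
    rw [QuotientGroup.mk_mul, QuotientGroup.mk_mul, QuotientGroup.mk_mul, QuotientGroup.mk_inv,
      QuotientGroup.mk_inv, h, mul_inv_cancel_right, mul_inv_cancel]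
  · rw [← hk, ← hcomap, ← Subgroup.relIndex_bot_left Kb]
    conv_lhs => arg 1; rw [← QuotientGroup.ker_mk' N, ← MonoidHom.comap_bot]
    rw [Subgroup.relIndex_comap, Subgroup.map_comap_eq_self_of_surjective (QuotientGroup.mk'_surjective N)]

theorem normal_of_le_normalizer_of_sup {H M R : Subgroup Q} (hsup : H ⊔ M = ⊤)
    (hH : ∀ h ∈ H, ∀ r ∈ R, h * r * h⁻¹ ∈ R) (hM : ∀ m ∈ M, ∀ r ∈ R, m * r * m⁻¹ ∈ R) :
    R.Normal := by
  let S : Submonoid Q :=
    { carrier := {g | ∀ r ∈ R, g * r * g⁻¹ ∈ R}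
      one_mem' := fun r hr => by rwa [one_mul, inv_one, mul_one]
      mul_mem' := fun {a b} ha hb r hr => by
        have := ha _ (hb r hr)
        rwa [show a * b * r * (a * b)⁻¹ = a * (b * r * b⁻¹) * a⁻¹ by group] }
  refine ⟨fun r hr g => ?_⟩
  have hg : g ∈ (H ⊔ M).toSubmonoid := by rw [hsup]; trivial
  have hle : (H ⊔ M).toSubmonoid ≤ S := by
    rw [← Subgroup.closure_eq H, ← Subgroup.closure_eq M, ← Subgroup.closure_union,
      Subgroup.closure_toSubmonoid_of_finite, Submonoid.closure_le]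
    rintro x (hx | hx)
    exacts [hH x hx, hM x hx]
  exact hle hg r hr

/-- The structure of a solvable group with a core-free maximal subgroup. -/
theorem exists_socle [Group.IsSolvable Q] (H : Subgroup Q) (hmax : IsCoatom H)
    (hcore : H.normalCore = ⊥) :
    ∃ M : Subgroup Q, M.Normal ∧ M ≠ ⊥ ∧ H ⊓ M = ⊥ ∧ H ⊔ M = ⊤ ∧
      (∀ x ∈ H, (∀ m ∈ M, x * m = m * x) → x = 1) ∧
      (M ≠ ⊤ → ∃ (K : Subgroup Q) (q k : ℕ), K.Normal ∧ q.Prime ∧ ¬ q ∣ Nat.card M ∧
        Nat.card (K ⊓ H : Subgroup Q) = q ^ k ∧ K ⊓ H ≠ ⊥) := by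
  classical
  have hQ : (⊥ : Subgroup Q) ≠ ⊤ := fun h => hmax.1 (top_le_iff.1 (h ▸ bot_le))
  obtain ⟨M, p, l, hMn, hMbot, hMmin, hMcomm', hp, hMcard⟩ := exists_chief_factor (⊥ : Subgroup Q) hQ
  haveI := hMn
  have hMcomm : ∀ a ∈ M, ∀ b ∈ M, a * b = b * a := fun a ha b hb => by
    have h := Subgroup.mem_bot.1 (hMcomm' a ha b hb)
    calc a * b = a * b * a⁻¹ * b⁻¹ * (b * a) := by group
      _ = b * a := by rw [h, one_mul]
  have hle : ∀ R : Subgroup Q, R.Normal → R ≤ H → R = ⊥ := fun R hR hRH => by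
    rw [eq_bot_iff, ← hcore]
    exact Subgroup.normal_le_normalCore.2 hRH
  have hsup : H ⊔ M = ⊤ := hmax.2 _ (lt_of_le_of_ne le_sup_left fun h =>
    hMbot.ne' (hle M hMn (h ▸ le_sup_right)))
  have hinf : H ⊓ M = ⊥ := by
    refine hle _ (normal_of_le_normalizer_of_sup hsup (fun h hh r hr =>
      ⟨H.mul_mem (H.mul_mem hh hr.1) (H.inv_mem hh), hMn.conj_mem r hr.2 h⟩) fun m hm r hr => ?_) inf_le_left
    rwa [hMcomm m hm r hr.2, mul_inv_cancel_right]
  have hcent : ∀ x ∈ H, (∀ m ∈ M, x * m = m * x) → x = 1 := by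
    intro x hx hxm
    let C := H ⊓ Subgroup.centralizer (M : Set Q)
    have hC : C = ⊥ := by
      refine hle C (normal_of_le_normalizer_of_sup hsup (fun h hh r hr =>
        ⟨H.mul_mem (H.mul_mem hh hr.1) (H.inv_mem hh), Subgroup.Normal.conj_mem inferInstance r hr.2 h⟩)
        fun m hm r hr => ?_) inf_le_left
      rwa [Subgroup.mem_centralizer_iff.1 hr.2 m hm, mul_inv_cancel_right]
    have : x ∈ C := ⟨hx, Subgroup.mem_centralizer_iff.2 fun m hm => (hxm m hm).symm⟩
    rwa [hC, Subgroup.mem_bot] at this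
  refine ⟨M, hMn, hMbot.ne', hinf, hsup, hcent, fun hMtop => ?_⟩
  obtain ⟨K, q, k, hKn, hMK, -, -, hq, hKcard⟩ := exists_chief_factor M hMtop
  haveI := hKn
  have hded : K ≤ (K ⊓ H) ⊔ M := fun x hx => by
    obtain ⟨h, hh, m, hm, rfl⟩ := Subgroup.mem_sup_of_normal_right.1
      (show x ∈ H ⊔ M by rw [hsup]; trivial)
    refine Subgroup.mul_mem_sup ⟨?_, hh⟩ hm
    have := mul_mem hx (inv_mem (hMK.le hm))
    rwa [mul_inv_cancel_right] at this
  have hcardKH : Nat.card (K ⊓ H : Subgroup Q) = q ^ k := by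
    have h : M.relIndex K = M.relIndex (K ⊓ H) := by
      conv_lhs => rw [le_antisymm hded (sup_le inf_le_left hMK.le), Subgroup.relIndex_sup_right]
    rw [← hKcard, h, ← Subgroup.inf_relIndex_right,
      show M ⊓ (K ⊓ H) = ⊥ from eq_bot_iff.2 fun x hx => hinf ▸ ⟨hx.2.2, hx.1⟩,
      Subgroup.relIndex_bot_left]
  have hKH : K ⊓ H ≠ ⊥ := fun h => not_le_of_gt hMK (by
    refine hded.trans ?_
    rw [h, bot_sup_eq])
  refine ⟨K, q, k, hKn, hq, fun hqM => hKH ?_, hcardKH, hKH⟩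
  -- otherwise `K` is a `q`-group centralising `M`
  haveI := Fact.mk hq
  rw [Subgroup.relIndex_bot_left] at hMcard
  obtain rfl : q = p := (Nat.prime_dvd_prime_iff_eq hq hp).1 (hq.dvd_of_dvd_pow (hMcard ▸ hqM))
  have hKp : IsPGroup q K := IsPGroup.of_card (n := l + k) (by
    rw [← Subgroup.relIndex_bot_left K, ← Subgroup.relIndex_mul_relIndex ⊥ M K bot_le hMK.le,
      Subgroup.relIndex_bot_left, hMcard, hKcard, pow_add])
  letI : MulAction K M := MulAction.compHom M ((MulAut.conjNormal (H := M)).comp K.subtype)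
  have hsmul : ∀ (x : K) (m : M), ((x • m : M) : Q) = x * m * (x : Q)⁻¹ := fun x m =>
    MulAut.conjNormal_apply (H := M) (x : Q) m
  have h1 : (1 : M) ∈ MulAction.fixedPoints K M := fun x => Subtype.ext (by rw [hsmul]; simp)
  obtain ⟨b, hb, hb1⟩ := hKp.exists_fixed_point_of_prime_dvd_card_of_fixed_point M hqM h1
  have hZn : (M ⊓ Subgroup.centralizer (K : Set Q)).Normal := inferInstance
  have hbZ : (b : Q) ∈ M ⊓ Subgroup.centralizer (K : Set Q) := by
    refine ⟨b.2, Subgroup.mem_centralizer_iff.2 fun x hx => ?_⟩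
    have := congrArg (fun m : M => (m : Q)) (hb ⟨x, hx⟩)
    simp only [hsmul] at this
    exact mul_inv_eq_iff_eq_mul.1 this
  have hZ : M ⊓ Subgroup.centralizer (K : Set Q) = M :=
    hMmin _ hZn (lt_of_le_of_ne bot_le fun h => hb1 (Subtype.ext (by
      rw [← h, Subgroup.mem_bot] at hbZ
      exact hbZ.symm))) inf_le_left
  refine eq_bot_iff.2 fun x hx => Subgroup.mem_bot.2 (hcent x hx.2 fun m hm => ?_)
  exact Subgroup.mem_centralizer_iff.1 (hZ.symm ▸ hm : m ∈ M ⊓ Subgroup.centralizer (K : Set Q)).2 x hx.1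

end CfsgLib.RealChar
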