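import Cfsg.Agent.Lib.RealChar.FactorCover
import Cfsg.Agent.Lib.RealChar.SolvablePrimitive
import Cfsg.Agent.Lib.RealChar.FeitThompson
import Cfsg.Agent.Lib.CharTheory.Ito
import Cfsg.Agent.Lib.CharTheory.Linear

/-!
# Berger's theorem: quasiprimitive characters of solvable groups are primitive

The relative form: `L ⊴ G` with `G ⧸ L` solvable and `χ` homogeneous on every normal subgroup over `L`.
-/

set_option autoImplicit false
set_option linter.style.haveILetI false
set_option linter.unusedSectionVars false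

open scoped ComplexConjugate
open Cfsg CfsgLib.CharTheory

namespace CfsgLib.RealChar.Berger

universe u

variable {G : Type u} [Group G] [Fintype G]

/-- `χ` restricts to `M` as a multiple of one irreducible character. -/
def Homogeneous (χ : G → ℂ) (M : Subgroup G) : Prop :=
  ∃ (ϑ : M → ℂ) (e : ℕ), IsIrrCharacter M ϑ ∧ (fun m : M => χ m) = (e : ℂ) • ϑ

/-- The conclusion for characters of degree less than `n`. -/
def Hyp (n : ℕ) : Prop :=
  ∀ {E : Type u} [Group E] [Fintype E] (L : Subgroup E) [L.Normal], Group.IsSolvable (E ⧸ L) →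
    ∀ W : E → ℂ, IsIrrCharacter E W → (W 1).re < n →
      (∀ M : Subgroup E, M.Normal → L ≤ M → Homogeneous W M) →
      ∀ J : Subgroup E, J ≠ ⊤ → L ≤ J → ∀ ω : J → ℂ, IsCharacter J ω → indFun J ω ≠ W

theorem extendByZero_conj (H : Subgroup G) (θ : H → ℂ) (g : G) :
    extendByZero H (fun h => conj (θ h)) g = conj (extendByZero H θ g) := by
  by_cases hg : g ∈ H
  · rw [CfsgLib.Frobenius.extendByZero_of_mem H _ hg, CfsgLib.Frobenius.extendByZero_of_mem H _ hg]
  · rw [CfsgLib.Frobenius.extendByZero_of_not_mem H _ hg, CfsgLib.Frobenius.extendByZero_of_not_mem H _ hg,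
      map_zero]

theorem indFun_conj (H : Subgroup G) (θ : H → ℂ) :
    indFun H (fun h => conj (θ h)) = fun g => conj (indFun H θ g) := by
  funext g
  simp only [indFun, extendByZero_conj, map_mul, map_inv₀, map_natCast, map_sum]

theorem classInner_res_eq_one {χ : G → ℂ} (hχ : IsIrrCharacter G χ) (H : Subgroup G) [Fintype H]
    {ψ : H → ℂ} (hind : indFun H ψ = χ) : classInner (fun h : H => χ h) ψ = 1 := by
  rw [classInner_conj_symm, ← CfsgLib.Frobenius.classInner_indFun H ψ χ
    (IsIrrCharacter.isClassFunction hχ), hind, classInner_self_of_isIrr hχ, map_one]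

section Cover

variable {M : Subgroup G} {ξ : M → ℂ} (C : FactorCover M ξ)

theorem ι_injective : Function.Injective C.ι := fun a b h =>
  Subtype.ext (by rw [← C.section_apply a, h, C.section_apply b])

theorem irr_res_range (hξ : IsIrrCharacter M ξ) [Fintype C.ι.range] :
    IsIrrCharacter C.ι.range fun x : C.ι.range => C.X x := by
  convert isIrrCharacter_comp_mulEquiv hξ (MonoidHom.ofInjective (ι_injective C)).symm using 1
  funext x
  obtain ⟨m, rfl⟩ := (MonoidHom.ofInjective (ι_injective C)).surjective x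
  rw [MulEquiv.symm_apply_apply, ← C.ext_apply m]
  rfl

/-- `χ ∘ π = W · X` with `W` a character of `E ⧸ ι M`. -/
theorem exists_factor (hξ : IsIrrCharacter M ξ) {χ : G → ℂ} (hχ : IsIrrCharacter G χ) {a : ℕ}
    (ha : ∀ m : M, χ m = a * ξ m) :
    ∃ W : C.E → ℂ, IsIrrCharacter C.E W ∧ (∀ n ∈ C.ι.range, ∀ g, W (n * g) = W g) ∧ W 1 = a ∧
      (fun e => χ (C.π e)) = W * C.X := by
  classical
  haveI := C.range_normal
  haveI := Fintype.ofFinite C.ι.range
  refine gallagher_factor C.ι.range C.irr (irr_res_range C hξ) (isIrrCharacter_comp hχ C.surj) ?_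
  rintro ⟨_, m, rfl⟩
  show χ (C.π (C.ι m)) = a * C.X (C.ι m)
  rw [C.section_apply, C.ext_apply, ha]

/-- Homogeneity of the factor on normal subgroups containing the preimage of `M`. -/
theorem homogeneous_factor (hξ : IsIrrCharacter M ξ) {χ : G → ℂ} {W : C.E → ℂ}
    (hW : ∀ n ∈ C.ι.range, ∀ g, W (n * g) = W g) (hWX : (fun e => χ (C.π e)) = W * C.X)
    {a : ℕ} (ha0 : a ≠ 0) (ha : ∀ m : M, χ m = a * ξ m)
    (P : Subgroup C.E) [Fintype P] (hP : P.Normal) (hker : C.π.ker ≤ P) (hRP : C.ι.range ≤ P)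
    (hqp : ∀ N : Subgroup G, N.Normal → M ≤ N → Homogeneous χ N) :
    ∃ (β : P → ℂ) (b : ℕ), IsIrrCharacter P β ∧
      (∀ n : P, (n : C.E) ∈ C.ι.range → ∀ g, β (n * g) = β g) ∧ (fun p : P => W p) = (b : ℂ) • β := by
  classical
  haveI := C.range_normal
  haveI := Fintype.ofFinite C.ι.range
  let R := C.ι.range.subgroupOf P
  haveI := Fintype.ofFinite R
  set N := P.map C.π with hN
  haveI := Fintype.ofFinite N
  obtain ⟨η, b, hη, hres⟩ := hqp N (hP.map _ C.surj) fun m hm =>
    ⟨C.ι ⟨m, hm⟩, hRP ⟨_, rfl⟩, C.section_apply _⟩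
  let f : P →* N := (C.π.comp P.subtype).codRestrict N fun p => ⟨p, p.2, rfl⟩
  have hf : Function.Surjective f := by
    rintro ⟨_, p, hp, rfl⟩
    exact ⟨⟨p, hp⟩, rfl⟩
  have hXR : IsIrrCharacter R fun r : R => C.X r :=
    isIrrCharacter_comp_mulEquiv (irr_res_range C hξ) (Subgroup.subgroupOfEquivOfLe hRP)
  have hXP : IsIrrCharacter P fun p : P => C.X p :=
    isIrrCharacter_of_comp R.subtype
      (CfsgLib.Coherence.isCharacter_comp (IsIrrCharacter.isCharacter C.irr) P.subtype) hXR
  have hb : b ≠ 0 := fun hb0 => by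
    have h := congrFun hres 1
    have h1 := ha 1
    rw [hb0, Nat.cast_zero, zero_smul, Pi.zero_apply, OneMemClass.coe_one] at h
    rw [OneMemClass.coe_one, h, zero_eq_mul] at h1
    exact h1.elim (fun h => ha0 (by exact_mod_cast h)) (apply_one_ne_zero_of_isIrr hξ)
  have hbr : ∀ r : R, (b : ℂ) * η (f r) = a * C.X r := fun r => by
    obtain ⟨m, hm⟩ := (Subgroup.mem_subgroupOf.1 r.2 : ((r : P) : C.E) ∈ C.ι.range)
    have h := congrFun hres (f r)
    rw [Pi.smul_apply, smul_eq_mul] at h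
    rw [← h]
    show χ (C.π ((r : P) : C.E)) = _
    rw [← hm, C.section_apply, C.ext_apply, ha]
  -- `η ∘ π` lies over `X`
  have hηc : IsIrrCharacter P fun p => η (f p) := isIrrCharacter_comp hη hf
  obtain ⟨c, hc⟩ := IsCharacter.exists_classInner_eq_nat
    (CfsgLib.Coherence.isCharacter_comp (IsIrrCharacter.isCharacter hηc) R.subtype) ⟨_, hXR⟩
  have hηR : ∀ r : R, η (f r) = c * C.X r := by
    have h : classInner (fun r : R => η (f r)) (fun r : R => C.X r) = (a : ℂ) / b := by
      have h' : (fun r : R => η (f r)) = ((a : ℂ) / b) • fun r : R => C.X r := funext fun r => by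
        rw [Pi.smul_apply, smul_eq_mul, div_mul_eq_mul_div, eq_div_iff (Nat.cast_ne_zero.2 hb),
          mul_comm (η (f r)), hbr]
      rw [h', classInner_smul_left, classInner_self_of_isIrr hXR, mul_one]
    intro r
    have hc' : (c : ℂ) = (a : ℂ) / b := hc.symm.trans h
    rw [hc', div_mul_eq_mul_div, eq_div_iff (Nat.cast_ne_zero.2 hb), mul_comm, hbr]
  obtain ⟨β, hβ, hβinv, -, hfac⟩ := gallagher_factor R hXP hXR hηc hηR
  refine ⟨β, b, hβ, fun n hn g => hβinv n (Subgroup.mem_subgroupOf.2 hn) g,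
    eq_of_mul_eq_mul R hXP hXR (fun n hn g => hW n (Subgroup.mem_subgroupOf.1 hn) g)
      (fun n hn g => by rw [Pi.smul_apply, Pi.smul_apply, hβinv n hn]) (funext fun p => ?_)⟩
  have h1 := congrFun hWX (p : C.E)
  have h2 := congrFun hres (f p)
  have h3 := congrFun hfac p
  simp only [Pi.mul_apply, Pi.smul_apply, smul_eq_mul] at h1 h2 h3 ⊢
  rw [← h1, show χ (C.π p) = χ ((f p : N) : G) from rfl, h2, h3, mul_assoc]

theorem isSolvable_quotient_comap {E : Type u} [Group E] (f : E →* G) (N : Subgroup G) [N.Normal]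
    (hN : Group.IsSolvable (G ⧸ N)) : Group.IsSolvable (E ⧸ N.comap f) := by
  haveI := hN
  refine Group.isSolvable_of_isSolvable_injective (f := QuotientGroup.map (N.comap f) N f le_rfl) ?_
  rw [injective_iff_map_eq_one]
  intro x hx
  obtain ⟨e, rfl⟩ := QuotientGroup.mk_surjective x
  rw [QuotientGroup.map_mk, QuotientGroup.eq_one_iff] at hx
  exact (QuotientGroup.eq_one_iff e).2 hx

theorem ker_le_comap (S : Subgroup G) : C.π.ker ≤ S.comap C.π := fun e he => by
  rw [Subgroup.mem_comap, MonoidHom.mem_ker.1 he]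
  exact one_mem _

theorem range_le_comap : C.ι.range ≤ M.comap C.π := by
  rintro _ ⟨m, rfl⟩
  rw [Subgroup.mem_comap, C.section_apply]
  exact m.2

end Cover

/-- Case 1: a constituent on the core is not linear. -/
theorem false_of_core_nonlinear {n : ℕ} (ih : Hyp.{u} n) (L : Subgroup G) [L.Normal]
    (hsolv : Group.IsSolvable (G ⧸ L)) {χ : G → ℂ} (hχ : IsIrrCharacter G χ) (hn : χ 1 = n)
    (hqp : ∀ N : Subgroup G, N.Normal → L ≤ N → Homogeneous χ N) (H : Subgroup G) (hH : H ≠ ⊤)
    (hLH : L ≤ H) {ψ : H → ℂ} (hψ : IsCharacter H ψ) (hind : indFun H ψ = χ)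
    {ξ : L → ℂ} (hξ : IsIrrCharacter L ξ) {a : ℕ} (hres : (fun l : L => χ l) = (a : ℂ) • ξ)
    (hξ1 : ξ 1 ≠ 1) : False := by
  classical
  haveI := Fintype.ofFinite L
  haveI := Fintype.ofFinite H
  have ha : ∀ l : L, χ l = a * ξ l := fun l => congrFun hres l
  obtain ⟨s, hspos, hs⟩ := exists_degree_of_isIrr hξ
  have hn' : (a * s : ℕ) = n := by
    have h := ha 1
    rw [OneMemClass.coe_one, hn, hs] at h
    exact_mod_cast h.symm
  have ha0 : a ≠ 0 := fun h => apply_one_ne_zero_of_isIrr hχ (by rw [hn, ← hn', h, zero_mul, Nat.cast_zero])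
  have hinv : ∀ (g : G) (l : L), ξ (MulAut.conjNormal g l) = ξ l := fun g l => by
    have h := IsIrrCharacter.isClassFunction hχ (l : G) g
    rw [← MulAut.conjNormal_apply, ha, ha] at h
    exact mul_left_cancel₀ (Nat.cast_ne_zero.2 ha0) h
  obtain ⟨C⟩ := nonempty_factorCover L hξ hinv
  obtain ⟨W, hW, hWinv, hW1, hWX⟩ := exists_factor C hξ hχ ha
  haveI := C.range_normal
  haveI := Fintype.ofFinite C.ι.range
  set H' := H.comap C.π with hH'
  haveI := Fintype.ofFinite H'
  have hLH' : L.comap C.π ≤ H' := Subgroup.comap_mono hLH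
  have hRH : C.ι.range ≤ H' := (range_le_comap C).trans hLH'
  let R := C.ι.range.subgroupOf H'
  haveI := Fintype.ofFinite R
  let f : H' →* H := (C.π.comp H'.subtype).codRestrict H fun x => x.2
  have hf : Function.Surjective f := by
    rintro ⟨h, hh⟩
    obtain ⟨e, rfl⟩ := C.surj h
    exact ⟨⟨e, hh⟩, rfl⟩
  set F : H' → ℂ := fun x => ψ (f x) * conj (C.X x) with hF
  have hFchar : IsCharacter H' F := CfsgLib.CharTheory.isCharacter_mul
    (CfsgLib.Coherence.isCharacter_comp hψ f)
    (CfsgLib.CharTheory.isCharacter_conj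
      (CfsgLib.Coherence.isCharacter_comp (IsIrrCharacter.isCharacter C.irr) H'.subtype))
  set Y := CfsgLib.Clifford.cosetAvg R F with hY
  -- the multiplicity
  have h1 : classInner (fun x : H' => W x) Y = 1 := by
    rw [hY, classInner_cosetAvg R (fun n hn x => hWinv n (Subgroup.mem_subgroupOf.1 hn) x),
      show classInner (fun x : H' => W x) F
        = classInner (fun x : H' => χ (f x)) (fun x : H' => ψ (f x)) from ?_,
      classInner_comp_surjective f hf (fun h : H => χ h) ψ, classInner_res_eq_one hχ H hind]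
    simp only [classInner]
    congr 1
    refine Finset.sum_congr rfl fun x _ => ?_
    have hx := congrFun hWX (x : C.E)
    simp only [Pi.mul_apply] at hx
    rw [show χ ((f x : H) : G) = χ (C.π x) from rfl, hx, hF, map_mul, Complex.conj_conj]
    ring
  -- the degree
  let g : L →* R :=
    (C.ι.codRestrict H' fun l => hRH ⟨l, rfl⟩).codRestrict R fun l => Subgroup.mem_subgroupOf.2 ⟨l, rfl⟩
  have hg : Function.Surjective g := by
    rintro ⟨x, hx⟩
    obtain ⟨l, hl⟩ := Subgroup.mem_subgroupOf.1 hx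
    exact ⟨l, Subtype.ext (Subtype.ext hl)⟩
  have hY1 : Y 1 = classInner (fun l : L => ψ ⟨(l : G), hLH l.2⟩) ξ := by
    rw [hY, CfsgLib.Clifford.cosetAvg_one, ← classInner_comp_surjective g hg]
    simp only [classInner, map_one, mul_one]
    congr 1
    refine Finset.sum_congr rfl fun l _ => ?_
    show ψ (f ⟨C.ι l, _⟩) * conj (C.X (C.ι l)) = _
    rw [C.ext_apply]
    congr 2
    exact Subtype.ext (C.section_apply l)
  have hdegψ : χ 1 = (H.index : ℂ) * ψ 1 := by rw [← hind, CfsgLib.Frobenius.indFun_one]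
  obtain ⟨d, hd⟩ := exists_nat_degree hψ
  have hle : (Y 1).re * s ≤ d := by
    have h := classInner_mul_degree_le
      (CfsgLib.Coherence.isCharacter_comp hψ (Subgroup.inclusion hLH)) hξ
    rw [hs, Complex.natCast_re, map_one, hd, Complex.natCast_re] at h
    rw [hY1]
    exact h
  have hdeg : (H'.index : ℝ) * (Y 1).re ≤ (W 1).re := by
    rw [hW1, Complex.natCast_re, show H'.index = H.index from Subgroup.index_comap_of_surjective H C.surj]
    refine le_of_mul_le_mul_right ?_ (Nat.cast_pos.2 hspos : (0 : ℝ) < s)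
    have h : (a : ℝ) * s = H.index * d := by
      have := hdegψ
      rw [hn, hd, ← hn'] at this
      exact_mod_cast this
    rw [mul_assoc, h]
    exact mul_le_mul_of_nonneg_left hle (Nat.cast_nonneg _)
  have hYchar : IsCharacter H' Y := CfsgLib.Clifford.isCharacter_cosetAvg R hFchar
  refine ih (L.comap C.π) (isSolvable_quotient_comap C.π L hsolv) W hW ?_ (fun P hP hLP => ?_) H'
    (fun h => hH ?_) hLH' Y hYchar
    (indFun_eq_of_constituent H' hW hYchar (by rw [h1]; exact one_ne_zero) hdeg)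
  · rw [hW1, Complex.natCast_re, Nat.cast_lt, ← hn']
    refine lt_mul_of_one_lt_right (Nat.pos_of_ne_zero ha0) (lt_of_le_of_ne hspos fun h => hξ1 ?_)
    rw [hs, ← h, Nat.cast_one]
  · haveI := Fintype.ofFinite P
    obtain ⟨β, b, hβ, -, hPW⟩ := homogeneous_factor C hξ hWinv hWX ha0 ha P hP
      ((ker_le_comap C L).trans hLP) ((range_le_comap C).trans hLP) hqp
    exact ⟨β, b, hβ, hPW⟩
  · rw [← Subgroup.map_comap_eq_self_of_surjective C.surj H, ← hH', h,
      Subgroup.map_top_of_surjective _ C.surj]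

/-- The socle structure pulled back to `G`. -/
theorem exists_socle_pullback (H : Subgroup G) (hmax : IsCoatom H) (L : Subgroup G) [L.Normal]
    (hL : L = H.normalCore) (hsolv : Group.IsSolvable (G ⧸ L)) :
    ∃ M : Subgroup G, M.Normal ∧ L < M ∧ H ⊓ M = L ∧ H ⊔ M = ⊤ ∧
      (∀ x ∈ H, (∀ m ∈ M, x * m * x⁻¹ * m⁻¹ ∈ L) → x ∈ L) ∧
      (M ≠ ⊤ → ∃ (K : Subgroup G) (q k : ℕ), K.Normal ∧ L ≤ K ∧ q.Prime ∧ ¬ q ∣ L.relIndex M ∧
        L.relIndex (K ⊓ H) = q ^ k ∧ ¬ K ⊓ H ≤ L) := by
  classical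
  haveI := hsolv
  have hLH : L ≤ H := hL ▸ H.normalCore_le
  have hsur := QuotientGroup.mk'_surjective L
  have hker : (QuotientGroup.mk' L).ker = L := QuotientGroup.ker_mk' L
  have hcmH : (H.map (QuotientGroup.mk' L)).comap (QuotientGroup.mk' L) = H :=
    Subgroup.comap_map_eq_self (by rw [hker]; exact hLH)
  have hbot : (⊥ : Subgroup (G ⧸ L)).comap (QuotientGroup.mk' L) = L := by
    rw [MonoidHom.comap_bot, hker]
  have hmem : ∀ x : G, QuotientGroup.mk' L x = 1 ↔ x ∈ L := QuotientGroup.eq_one_iff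
  have hco : IsCoatom (H.map (QuotientGroup.mk' L)) := by
    refine ⟨fun h => hmax.1 ?_, fun S hS => ?_⟩
    · rw [← hcmH, h, Subgroup.comap_top]
    · have h1 : H < S.comap (QuotientGroup.mk' L) := by
        refine lt_of_le_of_ne (hcmH.symm.le.trans (Subgroup.comap_mono hS.le)) fun h => hS.ne ?_
        rw [h, Subgroup.map_comap_eq_self_of_surjective hsur]
      rw [← Subgroup.map_comap_eq_self_of_surjective hsur S, hmax.2 _ h1,
        Subgroup.map_top_of_surjective _ hsur]
  have hcore : (H.map (QuotientGroup.mk' L)).normalCore = ⊥ := by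
    set S := (H.map (QuotientGroup.mk' L)).normalCore with hS
    have h1 : S.comap (QuotientGroup.mk' L) ≤ H.normalCore := by
      haveI : (S.comap (QuotientGroup.mk' L)).Normal := Subgroup.Normal.comap inferInstance _
      exact Subgroup.normal_le_normalCore.2
        ((Subgroup.comap_mono (Subgroup.normalCore_le _)).trans hcmH.le)
    rw [← hL] at h1
    rw [← Subgroup.map_comap_eq_self_of_surjective hsur S, Subgroup.map_eq_bot_iff, hker]
    exact h1
  obtain ⟨M, hMn, hMbot, hinf, hsup, hcent, hK⟩ := exists_socle _ hco hcore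
  refine ⟨M.comap (QuotientGroup.mk' L), hMn.comap _, lt_of_le_of_ne ?_ fun h => hMbot ?_, ?_, ?_,
    fun x hx hxm => ?_, fun htop => ?_⟩
  · exact hbot.symm.le.trans (Subgroup.comap_mono bot_le)
  · rw [← Subgroup.map_comap_eq_self_of_surjective hsur M, ← h, Subgroup.map_eq_bot_iff, hker]
  · calc H ⊓ M.comap (QuotientGroup.mk' L)
          = (H.map (QuotientGroup.mk' L)).comap (QuotientGroup.mk' L) ⊓ M.comap (QuotientGroup.mk' L) := by
            rw [hcmH]
      _ = (H.map (QuotientGroup.mk' L) ⊓ M).comap (QuotientGroup.mk' L) := (Subgroup.comap_inf _ _ _).symm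
      _ = L := by rw [hinf, hbot]
  · rw [← Subgroup.comap_top (QuotientGroup.mk' L), ← hsup, ← Subgroup.comap_sup_eq _ _ _ hsur, hcmH]
  · refine (hmem x).1 (hcent _ (Subgroup.mem_map_of_mem _ hx) fun m hm => ?_)
    obtain ⟨g, rfl⟩ := hsur m
    have h := (hmem _).2 (hxm g hm)
    rw [map_mul, map_mul, map_mul, map_inv, map_inv] at h
    exact mul_inv_eq_iff_eq_mul.1 (mul_inv_eq_one.1 h)
  · obtain ⟨K, q, k, hKn, hq, hqM, hcard, hne⟩ := hK fun h => htop (by rw [h, Subgroup.comap_top])
    have hidx : ∀ S : Subgroup (G ⧸ L), L.relIndex (S.comap (QuotientGroup.mk' L)) = Nat.card S := by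
      intro S
      conv_lhs => arg 1; rw [← hbot]
      rw [Subgroup.relIndex_comap, Subgroup.map_comap_eq_self_of_surjective hsur,
        Subgroup.relIndex_bot_left]
    have hKH : K.comap (QuotientGroup.mk' L) ⊓ H
        = (K ⊓ H.map (QuotientGroup.mk' L)).comap (QuotientGroup.mk' L) := by
      rw [Subgroup.comap_inf, hcmH]
    refine ⟨K.comap (QuotientGroup.mk' L), q, k, hKn.comap _, hbot.symm.le.trans (Subgroup.comap_mono bot_le),
      hq, by rwa [hidx], by rw [hKH, hidx, hcard], fun h => hne ?_⟩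
    rw [← Subgroup.map_comap_eq_self_of_surjective hsur (K ⊓ _), Subgroup.map_eq_bot_iff, hker, ← hKH]
    exact h

/-- Case 2: the constituents on the core are linear. -/
theorem false_of_core_linear {n : ℕ} (ih : Hyp.{u} n) (L : Subgroup G) [L.Normal]
    {χ : G → ℂ} (hχ : IsIrrCharacter G χ) (hn : χ 1 = n)
    (hqp : ∀ N : Subgroup G, N.Normal → L ≤ N → Homogeneous χ N) (H : Subgroup G) (hmax : IsCoatom H)
    (hL : L = H.normalCore) (hsolv : Group.IsSolvable (G ⧸ L))
    {ψ : H → ℂ} (hψ : IsCharacter H ψ) (hind : indFun H ψ = χ)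
    {φ : L → ℂ} (hφ : IsIrrCharacter L φ) {e : ℕ} (hres : (fun l : L => χ l) = (e : ℂ) • φ)
    (hφ1 : φ 1 = 1) : False := by
  classical
  haveI := Fintype.ofFinite L
  haveI := Fintype.ofFinite H
  have hLH : L ≤ H := hL ▸ H.normalCore_le
  obtain ⟨M, hMn, hLM, hinf, hsup, hcent, hK⟩ := exists_socle_pullback H hmax L hL hsolv
  haveI := hMn
  haveI := Fintype.ofFinite M
  have hne : e = n := by
    have h := congrFun hres 1
    rw [OneMemClass.coe_one, Pi.smul_apply, smul_eq_mul, hφ1, mul_one, hn] at h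
    exact_mod_cast h.symm
  obtain ⟨μ, rfl⟩ := exists_hom_of_degree_one hφ hφ1
  have hnormφ : ∀ l : L, ‖(μ l : ℂ)‖ = 1 := fun l =>
    Complex.norm_eq_one_of_pow_eq_one (n := orderOf l)
      (by rw [← Units.val_pow_eq_pow_val, ← map_pow, pow_orderOf_eq_one, map_one, Units.val_one])
      (orderOf_pos l).ne'
  obtain ⟨ξ, a, hξ, hresM⟩ := hqp M hMn hLM.le
  have ha : ∀ m : M, χ m = a * ξ m := fun m => congrFun hresM m
  obtain ⟨s, hspos, hs⟩ := exists_degree_of_isIrr hξ
  have hn' : (a * s : ℕ) = n := by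
    have h := ha 1
    rw [OneMemClass.coe_one, hn, hs] at h
    exact_mod_cast h.symm
  have ha0 : a ≠ 0 := fun h => apply_one_ne_zero_of_isIrr hχ (by rw [hn, ← hn', h, zero_mul, Nat.cast_zero])
  -- `ξ` vanishes off `L` and has constant absolute value on it
  have hξout : ∀ m : M, (m : G) ∉ L → ξ m = 0 := fun m hm => by
    have h : χ m = 0 := by
      rw [← hind]
      refine CfsgLib.Frobenius.indFun_eq_zero_of_forall_conj_not_mem H ψ fun x hx => hm ?_
      have h2 : x⁻¹ * (m : G) * x ∈ L := by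
        rw [← hinf]
        exact ⟨hx, by simpa using hMn.conj_mem (m : G) m.2 x⁻¹⟩
      simpa [mul_assoc] using (inferInstance : L.Normal).conj_mem _ h2 x
    rw [ha] at h
    exact (mul_eq_zero.1 h).resolve_left (Nat.cast_ne_zero.2 ha0)
  have hξin : ∀ m : M, (m : G) ∈ L → ‖ξ m‖ = s := fun m hm => by
    have h : χ m = (e : ℂ) * (μ ⟨m, hm⟩ : ℂ) := congrFun hres ⟨(m : G), hm⟩
    have h2 := congrArg (fun z : ℂ => ‖z‖) ((ha m).symm.trans h)
    simp only [norm_mul, Complex.norm_natCast, hnormφ, mul_one] at h2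
    rw [hne, ← hn', Nat.cast_mul] at h2
    exact mul_left_cancel₀ (Nat.cast_ne_zero.2 ha0) h2
  have hsq : s * s = L.relIndex M := by
    have h1 : ∑ m : M, ξ m * conj (ξ m) = (Nat.card M : ℂ) := by
      have h := classInner_self_of_isIrr hξ
      rw [classInner, inv_mul_eq_iff_eq_mul₀ (Nat.cast_ne_zero.2 Nat.card_pos.ne'), mul_one] at h
      exact h
    have h2 : ∀ m : M, ξ m * conj (ξ m) = if m ∈ L.subgroupOf M then ((s * s : ℕ) : ℂ) else 0 := by
      intro m
      by_cases hm : m ∈ L.subgroupOf M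
      · rw [if_pos hm, Complex.mul_conj', hξin m hm, Nat.cast_mul, sq, Complex.ofReal_natCast]
      · rw [if_neg hm, hξout m hm, zero_mul]
    rw [Finset.sum_congr rfl fun m _ => h2 m, ← Finset.sum_filter, Finset.sum_const, nsmul_eq_mul,
      ← (L.subgroupOf M).card_mul_index,
      show (Finset.univ.filter fun m : M => m ∈ L.subgroupOf M).card = Nat.card (L.subgroupOf M) by
        rw [Nat.card_eq_fintype_card, Fintype.card_subtype], ← Nat.cast_mul, Nat.cast_inj] at h1
    exact Nat.eq_of_mul_eq_mul_left Nat.card_pos h1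
  have hindex : H.index = L.relIndex M := by
    have h1 : M.index = L.relIndex H := by
      rw [← Subgroup.relIndex_top_right, ← hsup, Subgroup.relIndex_sup_right, ← Subgroup.inf_relIndex_right,
        inf_comm, hinf]
    have h2 : L.relIndex H * H.index = L.relIndex M * M.index := by
      rw [Subgroup.relIndex_mul_index hLH, Subgroup.relIndex_mul_index hLM.le]
    rw [h1, mul_comm] at h2
    exact Nat.eq_of_mul_eq_mul_right (h1 ▸ Nat.pos_of_ne_zero Subgroup.index_ne_zero_of_finite) h2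
  have hs1 : 1 < s := by
    refine lt_of_le_of_ne hspos fun h => hLM.not_ge ?_
    exact Subgroup.relIndex_eq_one.1 (by rw [← hsq, ← h, one_mul])
  obtain ⟨d, hd⟩ := exists_nat_degree hψ
  have had : a = s * d := by
    have h : χ 1 = (H.index : ℂ) * ψ 1 := by rw [← hind, CfsgLib.Frobenius.indFun_one]
    rw [hn, hd, hindex, ← hsq, ← hn'] at h
    have h' : a * s = s * s * d := by exact_mod_cast h
    exact Nat.eq_of_mul_eq_mul_right hspos (by rw [h']; ring)
  have hMtop : M ≠ ⊤ := fun h => by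
    have h1 : classInner (fun m : M => χ m) (fun m : M => χ m) = 1 := by
      show classInner (fun m : M => χ (M.subtype m)) (fun m : M => χ (M.subtype m)) = 1
      rw [classInner_comp_surjective M.subtype (fun g => ⟨⟨g, h ▸ Subgroup.mem_top g⟩, rfl⟩) χ χ,
        classInner_self_of_isIrr hχ]
    rw [hresM, classInner_smul_left, classInner_smul_right, classInner_self_of_isIrr hξ, mul_one,
      Complex.conj_natCast] at h1
    have h2 : a * a = 1 := by exact_mod_cast h1
    have h3 : a = 1 := Nat.eq_one_of_mul_eq_one_right h2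
    rw [had] at h3
    have := Nat.eq_one_of_mul_eq_one_right h3
    omega
  obtain ⟨K, q, k, hKn, hLK, hq, hqM, hKidx, hKne⟩ := hK hMtop
  haveI := hKn
  have hinv : ∀ (g : G) (m : M), ξ (MulAut.conjNormal g m) = ξ m := fun g m => by
    have h := IsIrrCharacter.isClassFunction hχ (m : G) g
    rw [← MulAut.conjNormal_apply, ha, ha] at h
    exact mul_left_cancel₀ (Nat.cast_ne_zero.2 ha0) h
  obtain ⟨C⟩ := nonempty_factorCover M hξ hinv
  obtain ⟨W, hW, hWinv, hW1, hWX⟩ := exists_factor C hξ hχ ha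
  haveI := C.range_normal
  set EH := H.comap C.π with hEH
  haveI := Fintype.ofFinite EH
  let f : EH →* H := (C.π.comp EH.subtype).codRestrict H fun x => x.2
  have hf : Function.Surjective f := by
    rintro ⟨h, hh⟩
    obtain ⟨x, rfl⟩ := C.surj h
    exact ⟨⟨x, hh⟩, rfl⟩
  have hcover : C.ι.range ⊔ EH.subtype.range = ⊤ := by
    rw [Subgroup.range_subtype, eq_top_iff]
    intro x _
    obtain ⟨h, hh, m, hm, hhm⟩ := Subgroup.mem_sup_of_normal_right.1
      (show C.π x ∈ H ⊔ M by rw [hsup]; trivial)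
    have h1 : x * (C.ι ⟨m, hm⟩)⁻¹ ∈ EH := by
      rw [hEH, Subgroup.mem_comap, map_mul, map_inv, C.section_apply, ← hhm, mul_inv_cancel_right]
      exact hh
    rw [← inv_mul_cancel_right x (C.ι ⟨m, hm⟩), sup_comm]
    exact Subgroup.mul_mem_sup h1 ⟨_, rfl⟩
  set Xr : EH → ℂ := fun x => C.X x with hXr
  set Wr : EH → ℂ := fun x => W x with hWr
  have hWrirr : IsIrrCharacter EH Wr :=
    isIrrCharacter_comp_of_sup C.ι.range EH.subtype hcover hW hWinv
  set Y : EH → ℂ := (fun x => conj (Xr x)) * fun x => ψ (f x) with hY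
  have hXrchar : IsCharacter EH Xr :=
    CfsgLib.Coherence.isCharacter_comp (IsIrrCharacter.isCharacter C.irr) EH.subtype
  have hcXr : IsCharacter EH fun x => conj (Xr x) := CfsgLib.CharTheory.isCharacter_conj hXrchar
  have hψf : IsCharacter EH fun x => ψ (f x) := CfsgLib.Coherence.isCharacter_comp hψ f
  have hX1 : C.X 1 = s := by rw [← map_one C.ι, C.ext_apply, hs]
  have hYW : Y = Wr := by
    refine eq_of_constituent hWrirr (CfsgLib.CharTheory.isCharacter_mul hcXr hψf) ?_ ?_
    · rw [classInner_conj_symm,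
        show classInner Wr Y = classInner (fun x : EH => χ (f x)) (fun x : EH => ψ (f x)) from ?_,
        classInner_comp_surjective f hf (fun h : H => χ h) ψ, classInner_res_eq_one hχ H hind, map_one]
      · exact one_ne_zero
      simp only [classInner]
      congr 1
      refine Finset.sum_congr rfl fun x _ => ?_
      have hx := congrFun hWX (x : C.E)
      simp only [Pi.mul_apply] at hx
      rw [show χ ((f x : H) : G) = χ (C.π x) from rfl, hx, hY, Pi.mul_apply, map_mul, Complex.conj_conj,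
        hWr, hXr]
      ring
    · rw [hY, Pi.mul_apply, hXr, hWr, map_one, hd]
      simp only [OneMemClass.coe_one, hX1, hW1, Complex.conj_natCast, had, Nat.cast_mul]
      rfl
  have hXrirr : IsIrrCharacter EH Xr := by
    have h := CfsgLib.CharTheory.isIrrCharacter_conj
      (isIrrCharacter_of_mul hcXr hψf (by rw [← hY, hYW]; exact hWrirr))
    simpa using h
  -- the normal subgroup over `K ⊓ H`
  let A := ((K ⊓ H).comap C.π).subgroupOf EH
  haveI hAn : A.Normal := ⟨fun x hx g => by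
    have hx' : C.π ((x : EH) : C.E) ∈ K ⊓ H := hx
    show C.π ((g : C.E) * x * (g : C.E)⁻¹) ∈ K ⊓ H
    rw [map_mul, map_mul, map_inv]
    exact ⟨hKn.conj_mem _ hx'.1 _, H.mul_mem (H.mul_mem g.2 hx'.2) (H.inv_mem g.2)⟩⟩
  haveI := Fintype.ofFinite A
  obtain ⟨η, hη⟩ := CfsgLib.CharTheory.exists_constituent A (IsIrrCharacter.isCharacter hXrirr)
    (apply_one_ne_zero_of_isIrr hXrirr)
  have hXnorm : ∀ x : C.E, C.π x ∈ L → ‖C.X x‖ = s := fun x hx => by
    set m : M := ⟨C.π x, hLM.le hx⟩ with hm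
    obtain ⟨ω, hω, hωX⟩ := CfsgLib.RealChar.exists_central_scalar C.irr
      (z := x * (C.ι m)⁻¹) (C.ker_central (MonoidHom.mem_ker.2 (by
        rw [map_mul, map_inv, C.section_apply, hm, mul_inv_cancel])))
    have h := hωX (C.ι m)
    rw [inv_mul_cancel_right, C.ext_apply] at h
    rw [h, norm_mul, hω, one_mul, hξin m hx]
  have hnot : ∃ g : EH, CfsgLib.Clifford.conjChar A (η : A → ℂ) g ≠ (η : A → ℂ) := by
    by_contra hall
    push Not at hall
    have hresA := CfsgLib.Clifford.res_eq_of_invariant A hXrirr η.2 hall hη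
    obtain ⟨c, hc⟩ := IsCharacter.exists_classInner_eq_nat
      (CfsgLib.Coherence.isCharacter_comp hXrchar A.subtype) η
    change classInner (fun n : A => Xr n) (η : A → ℂ) = _ at hc
    have hXA : ∀ y : A, C.X ((y : EH) : C.E) = c * (η : A → ℂ) y := fun y => by
      have := congrFun hresA y
      rw [Pi.smul_apply, smul_eq_mul, hc] at this
      exact this
    obtain ⟨t, htpos, ht⟩ := exists_degree_of_isIrr η.2
    have hst : s = c * t := by
      have h := hXA 1
      simp only [OneMemClass.coe_one, hX1, ht] at h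
      exact_mod_cast h
    have hc0 : (c : ℝ) ≠ 0 := by
      intro h
      rw [Nat.cast_eq_zero] at h
      rw [h, zero_mul] at hst
      omega
    let B := ((L.comap C.π).subgroupOf EH).subgroupOf A
    obtain ⟨t', ht', htdvd⟩ := CfsgLib.CharTheory.exists_degree_dvd_index_of_norm η.2 B fun y hy => by
      have h := congrArg (fun z : ℂ => ‖z‖) (hXA y)
      rw [hXnorm ((y : EH) : C.E) hy, norm_mul, Complex.norm_natCast, hst, Nat.cast_mul] at h
      rw [ht, Complex.natCast_re]
      exact (mul_left_cancel₀ hc0 h).symm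
    obtain rfl : t' = t := by exact_mod_cast ht'.symm.trans ht
    have hBidx : B.index = q ^ k := by
      show ((L.comap C.π).subgroupOf EH).relIndex A = _
      rw [Subgroup.relIndex_subgroupOf (Subgroup.comap_mono inf_le_right),
        Subgroup.relIndex_comap, Subgroup.map_comap_eq_self_of_surjective C.surj, hKidx]
    rw [hBidx, Nat.dvd_prime_pow hq] at htdvd
    obtain ⟨j, -, hj⟩ := htdvd
    have ht1 : t' = 1 := by
      rcases Nat.eq_zero_or_pos j with h | h
      · rw [hj, h, pow_zero]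
      · refine absurd ?_ hqM
        rw [← hsq, hst, hj]
        exact ((dvd_pow_self q h.ne').trans (dvd_mul_left _ _)).trans (dvd_mul_right _ _)
    subst ht1
    obtain ⟨ν, hν⟩ := exists_hom_of_degree_one η.2 (by rw [ht, Nat.cast_one])
    have hXscal : ∀ y : A, ‖C.X ((y : EH) : C.E)‖ = s := fun y => by
      rw [hXA, hν, norm_mul, Complex.norm_natCast, Complex.norm_eq_one_of_pow_eq_one (n := orderOf y)
        (by rw [← Units.val_pow_eq_pow_val, ← map_pow, pow_orderOf_eq_one, map_one, Units.val_one])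
        (orderOf_pos y).ne', hst, mul_one, mul_one]
    obtain ⟨dd, σ, -, hσ⟩ := C.irr
    refine hKne fun x hx => hcent x hx.2 fun m hm => ?_
    obtain ⟨y, rfl⟩ := C.surj x
    have hy : ‖σ.character y‖ = (Module.finrank ℂ (Fin dd → ℂ) : ℝ) := by
      have h1 : σ.character 1 = (s : ℂ) := by rw [hσ, hX1]
      rw [σ.char_one] at h1
      have h2 : Module.finrank ℂ (Fin dd → ℂ) = s := by exact_mod_cast h1
      rw [hσ, h2]
      exact hXscal ⟨⟨y, hx.2⟩, hx⟩
    obtain ⟨ω, hω, -⟩ := CfsgLib.CharTheory.exists_smul_of_norm_character σ y hy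
    have hcom : σ y * σ (C.ι ⟨m, hm⟩) = σ (C.ι ⟨m, hm⟩) * σ y := by
      rw [hω, ← Module.End.one_eq_id, smul_mul_assoc, mul_smul_comm, one_mul, mul_one]
    obtain ⟨m', hm'⟩ : y * C.ι ⟨m, hm⟩ * y⁻¹ * (C.ι ⟨m, hm⟩)⁻¹ ∈ C.ι.range :=
      mul_mem (C.range_normal.conj_mem _ ⟨_, rfl⟩ y) (inv_mem ⟨_, rfl⟩)
    have hone : σ (y * C.ι ⟨m, hm⟩ * y⁻¹ * (C.ι ⟨m, hm⟩)⁻¹) = 1 := by
      rw [map_mul σ, map_mul σ, map_mul σ, hcom, mul_assoc (σ (C.ι ⟨m, hm⟩)), ← map_mul σ y,
        mul_inv_cancel, map_one, mul_one, ← map_mul, mul_inv_cancel, map_one]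
    have hval : ξ m' = s := by
      rw [← C.ext_apply, hm', ← hX1, ← hσ]
      show LinearMap.trace ℂ _ (σ _) = LinearMap.trace ℂ _ (σ 1)
      rw [hone, map_one σ]
    have hπ : C.π y * m * (C.π y)⁻¹ * m⁻¹ = (m' : G) := by
      have := congrArg C.π hm'
      rw [C.section_apply, map_mul, map_mul, map_mul, map_inv, map_inv, C.section_apply] at this
      exact this.symm
    rw [hπ]
    by_contra hm''
    rw [hξout m' hm''] at hval
    exact hspos.ne' (by exact_mod_cast hval.symm)
  -- Clifford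
  have hAT := CfsgLib.CharTheory.le_inertia A (IsIrrCharacter.isClassFunction η.2)
  set T := CfsgLib.CharTheory.inertia A (η : A → ℂ) with hT
  haveI := Fintype.ofFinite T
  obtain ⟨γ, hγ, hγind, -⟩ := CfsgLib.Clifford.exists_indFun_inertia_eq η.2
    (CfsgLib.CharTheory.mem_inertia A (η : A → ℂ)) hAT hXrirr hη
  have hTtop : T ≠ ⊤ := fun h => by
    obtain ⟨g, hg⟩ := hnot
    exact hg ((CfsgLib.CharTheory.mem_inertia A (η : A → ℂ) g).1 (hT ▸ h ▸ Subgroup.mem_top g))
  let L2 := (L.comap C.π).subgroupOf EH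
  have hL2A : L2 ≤ A := fun x hx => ⟨hLK hx, x.2⟩
  have hsolv2 : Group.IsSolvable (EH ⧸ L2) := isSolvable_quotient_comap (C.π.comp EH.subtype) L hsolv
  have hδ : IsCharacter T ((fun x : T => conj (γ x)) * fun x : T => ψ (f x)) :=
    CfsgLib.CharTheory.isCharacter_mul
      (CfsgLib.CharTheory.isCharacter_conj (IsIrrCharacter.isCharacter hγ))
      (CfsgLib.Coherence.isCharacter_comp hψf T.subtype)
  have hindT : indFun T ((fun x : T => conj (γ x)) * fun x : T => ψ (f x)) = Wr := by
    rw [← hYW, hY, ← hγind, ← indFun_conj, ← CfsgLib.Brauer.indFun_mul_res T _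
      (IsCharacter.isClassFunction hψf)]
    rfl
  refine ih L2 hsolv2 Wr hWrirr ?_ (fun P hP hLP => ?_) T hTtop (hL2A.trans hAT) _ hδ hindT
  · rw [hWr]
    show (W ((1 : EH) : C.E)).re < n
    rw [OneMemClass.coe_one, hW1, Complex.natCast_re, Nat.cast_lt, ← hn']
    exact lt_mul_of_one_lt_right (Nat.pos_of_ne_zero ha0) hs1
  · set P'' := P.map EH.subtype with hP''
    set Pbar := C.ι.range ⊔ P'' with hPbar
    haveI := Fintype.ofFinite Pbar
    haveI := Fintype.ofFinite P
    have hker : C.π.ker ≤ Pbar := fun x hx => Subgroup.mem_sup_right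
      ⟨⟨x, ker_le_comap C H hx⟩, hLP (Subgroup.mem_subgroupOf.2 (ker_le_comap C L hx)), rfl⟩
    have hPn : Pbar.Normal := by
      refine normal_of_le_normalizer_of_sup (H := EH) (M := C.ι.range)
        (by rw [sup_comm]; rwa [Subgroup.range_subtype] at hcover) (fun h hh r hr => ?_)
        fun r' hr' r hr => Pbar.mul_mem (Pbar.mul_mem (Subgroup.mem_sup_left hr') hr)
          (Pbar.inv_mem (Subgroup.mem_sup_left hr'))
      obtain ⟨m, hm, p, ⟨p, hp, rfl⟩, rfl⟩ := Subgroup.mem_sup_of_normal_left.1 hr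
      rw [show h * (m * EH.subtype p) * h⁻¹ = (h * m * h⁻¹) * (h * EH.subtype p * h⁻¹) by group]
      exact Subgroup.mul_mem_sup (C.range_normal.conj_mem m hm h)
        ⟨⟨h, hh⟩ * p * ⟨h, hh⟩⁻¹, hP.conj_mem p hp _, rfl⟩
    obtain ⟨β, b, hβ, hβinv, hPW⟩ := homogeneous_factor C hξ hWinv hWX ha0 ha Pbar hPn hker
      le_sup_left (fun N hN hMN => hqp N hN (hLM.le.trans hMN))
    let j : P →* Pbar := (EH.subtype.comp P.subtype).codRestrict Pbar fun p =>
      Subgroup.mem_sup_right ⟨p.1, p.2, rfl⟩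
    refine ⟨fun p => β (j p), b, isIrrCharacter_comp_of_sup (C.ι.range.subgroupOf Pbar) j ?_ hβ
      (fun n hn => hβinv n (Subgroup.mem_subgroupOf.1 hn)), funext fun p => congrFun hPW (j p)⟩
    rw [eq_top_iff]
    rintro ⟨x, hx⟩ -
    obtain ⟨m, hm, p, ⟨p, hp, rfl⟩, rfl⟩ := Subgroup.mem_sup_of_normal_left.1 hx
    exact (show (⟨m * EH.subtype p, hx⟩ : Pbar) = ⟨m, Subgroup.mem_sup_left hm⟩ * j ⟨p, hp⟩ from rfl) ▸
      Subgroup.mul_mem_sup (Subgroup.mem_subgroupOf.2 hm) ⟨_, rfl⟩

theorem berger_aux (n : ℕ) : Hyp.{u} n := by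
  induction n with
  | zero =>
    intro E _ _ L _ _ W hW hlt _ J _ _ ω _
    obtain ⟨d, -, hd⟩ := exists_degree_of_isIrr hW
    rw [hd, Complex.natCast_re, Nat.cast_zero] at hlt
    exact absurd hlt (Nat.cast_nonneg d).not_gt
  | succ n ih =>
    intro E _ _ L _ hsolv W hW hlt hqp J hJ hLJ ω hω hind
    classical
    obtain ⟨d, -, hd⟩ := exists_degree_of_isIrr hW
    rw [hd, Complex.natCast_re, Nat.cast_lt] at hlt
    rcases Nat.lt_succ_iff_lt_or_eq.1 hlt with h | h
    · exact ih L hsolv W hW (by rw [hd, Complex.natCast_re, Nat.cast_lt]; exact h) hqp J hJ hLJ ω hω hind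
    subst h
    obtain ⟨H, hmax, hJH⟩ := (eq_top_or_exists_le_coatom J).resolve_left hJ
    haveI := Fintype.ofFinite H
    haveI := Fintype.ofFinite (J.subgroupOf H)
    let ω' : J.subgroupOf H → ℂ :=
      fun k => ω ⟨((k : H) : E), Subgroup.mem_subgroupOf.1 k.2⟩
    have hω' : IsCharacter (J.subgroupOf H) ω' :=
      CfsgLib.Coherence.isCharacter_comp hω (Subgroup.subgroupOfEquivOfLe hJH).toMonoidHom
    have hψ : IsCharacter H (indFun (J.subgroupOf H) ω') :=
      CfsgLib.Frobenius.isCharacter_indFun _ _ hω'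
    have hind' : indFun H (indFun (J.subgroupOf H) ω') = W := by
      rw [CfsgLib.Brauer.indFun_indFun_subgroupOf hJH, hind]
    have hLc : L ≤ H.normalCore := Subgroup.normal_le_normalCore.2 (hLJ.trans hJH)
    have hsolv' : Group.IsSolvable (E ⧸ H.normalCore) := by
      haveI := hsolv
      refine Group.isSolvable_of_surjective (f := QuotientGroup.map L H.normalCore (MonoidHom.id E) hLc) ?_
      intro x
      obtain ⟨g, rfl⟩ := QuotientGroup.mk_surjective x
      exact ⟨(g : E ⧸ L), rfl⟩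
    obtain ⟨ξ, a, hξ, hres⟩ := hqp H.normalCore inferInstance hLc
    by_cases h1 : ξ 1 = 1
    · exact false_of_core_linear ih H.normalCore hW hd (fun N hN hle => hqp N hN (hLc.trans hle)) H
        hmax rfl hsolv' hψ hind' hξ hres h1
    · exact false_of_core_nonlinear ih H.normalCore hsolv' hW hd
        (fun N hN hle => hqp N hN (hLc.trans hle)) H hmax.1 H.normalCore_le hψ hind' hξ hres h1

/-- Berger's theorem, relative form. -/
theorem berger (L : Subgroup G) [L.Normal] (hsolv : Group.IsSolvable (G ⧸ L)) {χ : G → ℂ}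
    (hχ : IsIrrCharacter G χ) (hqp : ∀ N : Subgroup G, N.Normal → L ≤ N → Homogeneous χ N)
    (H : Subgroup G) (hH : H ≠ ⊤) (hLH : L ≤ H) (ψ : H → ℂ) (hψ : IsCharacter H ψ) :
    indFun H ψ ≠ χ := by
  obtain ⟨d, -, hd⟩ := exists_degree_of_isIrr hχ
  exact berger_aux (d + 1) L hsolv χ hχ (by rw [hd, Complex.natCast_re]; exact_mod_cast d.lt_succ_self)
    hqp H hH hLH ψ hψ

end CfsgLib.RealChar.Berger
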