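import Cfsg.Agent.Lib.Blocks.Sections
import Cfsg.Agent.Lib.Blocks.Idempotent
import Cfsg.Agent.Lib.BlockLocal.Induced
import Cfsg.Agent.Lib.CharTheory.FullDefect
import Mathlib.LinearAlgebra.Matrix.NonsingularInverse

/-!
# Brauer's theorem on separated classes with a common defect group

If no quotient of conjugates of the `x i` is a nontrivial `p`-element, the sum over the `p`-elements of
the coefficients of `K_j K_i⁻¹` is `δ_{ij} |C_i|`; reducing modulo `M` gives linear independence of the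
central characters at the `x j`, over blocks with defect group `D`.
-/

set_option autoImplicit false
set_option linter.unusedSectionVars false
set_option linter.style.haveILetI false

open scoped ComplexConjugate
open MonoidAlgebra Cfsg

namespace CfsgLib.RealChar.BlockRank

variable {G : Type*} [Group G] [Finite G] {p : ℕ} [hp : Fact p.Prime] {M : Ideal AlgInt} [M.IsPrime]

/-- The `p'`-part of the order times the indicator of the `p`-elements is a generalized character. -/
theorem isGeneralizedCharacter_pElements [Fintype G]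
    [DecidablePred fun g : G => ∃ k : ℕ, orderOf g = p ^ k] {m a : ℕ}
    (hm : ¬ p ∣ m) (hG : Nat.card G = p ^ a * m) :
    IsGeneralizedCharacter G (fun g => if ∃ k : ℕ, orderOf g = p ^ k then (m : ℂ) else 0) := by
  classical
  have hord : ∀ g x : G, orderOf (x * g * x⁻¹) = orderOf g := fun g x => by
    rw [← MulAut.conj_apply]; exact MulEquiv.orderOf_eq (MulAut.conj x) g
  refine CfsgLib.Brauer.isGeneralizedCharacter_of_elementary (fun g x => by simp only [hord]) ?_
  intro E ℓ hℓ hE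
  haveI : Group.IsNilpotent E := CfsgLib.Brauer.isNilpotent_of_isElementary hℓ hE
  haveI := Fintype.ofFinite (IrrCharacter E)
  haveI := Fintype.ofFinite E
  obtain ⟨P⟩ : Nonempty (Sylow p E) := inferInstance
  haveI hPn : (P : Subgroup E).Normal := inferInstance
  haveI := Fintype.ofFinite (P : Subgroup E)
  set f : E → ℂ := fun e => if ∃ k : ℕ, orderOf (e : G) = p ^ k then (m : ℂ) else 0 with hf
  have hmem : ∀ e : E, (∃ k : ℕ, orderOf (e : G) = p ^ k) ↔ e ∈ (P : Subgroup E) := by
    intro e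
    rw [Subgroup.orderOf_coe]
    constructor
    · rintro ⟨k, hk⟩
      have hz : IsPGroup p (Subgroup.zpowers e) :=
        IsPGroup.of_card (n := k) (by rw [Nat.card_zpowers, hk])
      obtain ⟨R, hR⟩ := hz.exists_le_sylow
      haveI : Subsingleton (Sylow p E) := (P.unique_of_normal hPn).instSubsingleton
      rw [Subsingleton.elim P R]
      exact hR (Subgroup.mem_zpowers e)
    · intro he
      obtain ⟨k, hk⟩ := IsPGroup.iff_orderOf.mp P.2 ⟨e, he⟩
      exact ⟨k, (Subgroup.orderOf_coe (⟨e, he⟩ : (P : Subgroup E))).trans hk⟩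
  have hidx : (P : Subgroup E).index ∣ m := by
    refine Nat.Coprime.dvd_of_dvd_mul_left (k := (P : Subgroup E).index) (m := p ^ a) ?_ ?_
    · exact Nat.Coprime.pow_right _ ((hp.out.coprime_iff_not_dvd).2 P.not_dvd_index).symm
    · rw [← hG]
      exact (Subgroup.index_dvd_card _).trans (Subgroup.card_subgroup_dvd_card E)
  obtain ⟨c, hc⟩ := hidx
  have hfclass : IsClassFunction E f := fun g x => by
    simp only [hf, Subgroup.coe_mul, Subgroup.coe_inv, hord]
  have hcoef : ∀ θ : IrrCharacter E, ∃ z : ℤ, classInner f (θ : E → ℂ) = z := by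
    intro θ
    obtain ⟨z, hz⟩ := CfsgLib.CharTheory.exists_classInner_eq_int (G := (P : Subgroup E))
      (θ := fun _ => 1) (η := fun e : (P : Subgroup E) => (θ : E → ℂ) e)
      (CfsgLib.CharTheory.IsIrrCharacter.isGeneralizedCharacter CfsgLib.CharTheory.isIrrCharacter_one)
      (CfsgLib.CharTheory.IsCharacter.isGeneralizedCharacter (CfsgLib.Coherence.isCharacter_comp
        (CfsgLib.CharTheory.IsIrrCharacter.isCharacter θ.2) (P : Subgroup E).subtype))
    refine ⟨(c : ℤ) * z, ?_⟩
    have hsum : ∑ e : E, f e * conj ((θ : E → ℂ) e)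
        = (m : ℂ) * ∑ e : (P : Subgroup E), 1 * conj ((θ : E → ℂ) e) := by
      rw [Finset.mul_sum, ← Finset.sum_subtype (Finset.univ.filter fun e : E => e ∈ (P : Subgroup E))
        (fun e => by simp) (fun e : E => (m : ℂ) * (1 * conj ((θ : E → ℂ) e))), Finset.sum_filter]
      refine Finset.sum_congr rfl fun e _ => ?_
      simp only [hf, hmem e]
      split_ifs <;> simp
    have hP0 : (Nat.card (P : Subgroup E) : ℂ) ≠ 0 := by exact_mod_cast Nat.card_pos.ne'
    have hI0 : ((P : Subgroup E).index : ℂ) ≠ 0 := by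
      exact_mod_cast Subgroup.index_ne_zero_of_finite
    rw [classInner, inv_mul_eq_iff_eq_mul₀ hP0] at hz
    rw [classInner, hsum, hz, ← (P : Subgroup E).card_mul_index, hc]
    push_cast
    field_simp
  choose z hz using hcoef
  refine CfsgLib.CharTheory.isGeneralizedCharacter_iff_exists_sum.2 ⟨z, ?_⟩
  simp only [← hz]
  exact CfsgLib.CharTheory.eq_sum_classInner hfclass

/-- The average of an irreducible character over the `p`-elements is a local integer. -/
theorem memLocalRing_sum_pElements (hM : IsPModular p M) [Fintype G] (χ : IrrCharacter G)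
    [DecidablePred fun g : G => ∃ k : ℕ, orderOf g = p ^ k] :
    MemLocalRing M ((Nat.card G : ℂ)⁻¹ *
      ∑ u ∈ Finset.univ.filter (fun g : G => ∃ k : ℕ, orderOf g = p ^ k), conj ((χ : G → ℂ) u)) := by
  classical
  set a := (Nat.card G).factorization p
  set m := Nat.card G / p ^ a with hm
  have hmp : ¬ p ∣ m := Nat.not_dvd_ordCompl hp.out Nat.card_pos.ne'
  have hG : Nat.card G = p ^ a * m := (Nat.ordProj_mul_ordCompl_eq_self _ _).symm
  obtain ⟨z, hz⟩ := CfsgLib.CharTheory.exists_classInner_eq_int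
    (isGeneralizedCharacter_pElements hmp hG)
    (CfsgLib.CharTheory.IsIrrCharacter.isGeneralizedCharacter χ.2)
  have hm0 : (m : ℂ) ≠ 0 := by
    intro h
    rw [Nat.cast_eq_zero] at h
    exact hmp (h ▸ dvd_zero p)
  have hcast : classInner (fun g : G => if ∃ k : ℕ, orderOf g = p ^ k then (m : ℂ) else 0)
      (χ : G → ℂ) = (m : ℂ) * ((Nat.card G : ℂ)⁻¹ *
        ∑ u ∈ Finset.univ.filter (fun g : G => ∃ k : ℕ, orderOf g = p ^ k), conj ((χ : G → ℂ) u)) := by
    rw [classInner, mul_left_comm, Finset.mul_sum (a := (m : ℂ)), Finset.sum_filter]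
    congr 1
    refine Finset.sum_congr rfl fun g _ => ?_
    split_ifs <;> simp
  rw [hcast, mul_comm, ← eq_div_iff hm0, div_eq_mul_inv] at hz
  rw [hz]
  exact CfsgLib.Blocks.memLocalRing_mul (CfsgLib.Blocks.memLocalRing_intCast z)
    (CfsgLib.Blocks.memLocalRing_inv_natCast hM hmp)

/-- The sum over the `p`-elements of the coefficients of `K_y K_x⁻¹`. -/
theorem sum_omega_mul_eq [Fintype G] [Fintype (IrrCharacter G)]
    [DecidablePred fun g : G => ∃ k : ℕ, orderOf g = p ^ k] (x y : G)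
    [Decidable (IsConj x y)]
    (hsep : ∀ g h : G, IsConj y g → IsConj x h → ∀ k : ℕ, 0 < k → orderOf (g * h⁻¹) ≠ p ^ k) :
    ∑ χ : IrrCharacter G, centralChar (χ : G → ℂ) y * ((χ : G → ℂ) x⁻¹ *
        ((Nat.card G : ℂ)⁻¹ * ∑ u ∈ Finset.univ.filter (fun g : G => ∃ k : ℕ, orderOf g = p ^ k),
          conj ((χ : G → ℂ) u)))
      = if IsConj x y then 1 else 0 := by
  classical
  set S := Finset.univ.filter (fun g : G => ∃ k : ℕ, orderOf g = p ^ k) with hS
  set z : MonoidAlgebra ℂ G := CfsgLib.Blocks.classSum ℂ y * CfsgLib.Blocks.classSum ℂ x⁻¹ with hz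
  have hzc : CfsgLib.Blocks.IsClassElem z :=
    (CfsgLib.Blocks.isClassElem_classSum y).mul (CfsgLib.Blocks.isClassElem_classSum x⁻¹)
  have hidx : (Subgroup.centralizer ({x⁻¹} : Set G)).index ≠ 0 :=
    CfsgLib.Blocks.centralizer_index_ne_zero _
  -- combinatorial side
  have hcomb : ∑ u ∈ S, z.coeff u
      = if IsConj x y then ((Subgroup.centralizer ({x⁻¹} : Set G)).index : ℂ) else 0 := by
    have hconjinv : ∀ g : G, IsConj x⁻¹ g ↔ IsConj x g⁻¹ := fun g => by
      simp only [isConj_iff]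
      constructor <;> rintro ⟨c, hc⟩ <;> refine ⟨c, ?_⟩
      · rw [← hc]; group
      · rw [← inv_inv g, ← hc]; group
    rw [Finset.sum_eq_single (1 : G)]
    · rw [hz, CfsgLib.Blocks.coeff_mul_eq_sum]
      simp only [CfsgLib.Blocks.coeff_classSum, mul_one, ite_mul, one_mul, zero_mul, ← ite_and,
        hconjinv, inv_inv]
      by_cases hxy : IsConj x y
      · rw [if_pos hxy, ← CfsgLib.Blocks.card_filter_isConj x⁻¹, Finset.sum_ite, Finset.sum_const_zero,
          add_zero, Finset.sum_const, nsmul_eq_mul, mul_one]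
        congr 1
        refine Finset.card_bij (fun g _ => g⁻¹) (fun g hg => ?_) (fun a _ b _ h => inv_injective h)
          fun g hg => ⟨g⁻¹, ?_, inv_inv g⟩
        · simp only [Finset.mem_filter, Finset.mem_univ, true_and] at hg ⊢
          rw [hconjinv, inv_inv]
          exact hg.2
        · simp only [Finset.mem_filter, Finset.mem_univ, true_and, hconjinv] at hg ⊢
          exact ⟨hxy.symm.trans hg, hg⟩
      · rw [if_neg hxy]
        exact Finset.sum_eq_zero fun g _ => if_neg fun h => hxy (h.2.trans h.1.symm)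
    · intro u hu hu1
      obtain ⟨k, hk⟩ := (Finset.mem_filter.mp hu).2
      rw [hz, CfsgLib.Blocks.coeff_mul_eq_sum]
      refine Finset.sum_eq_zero fun g _ => ?_
      simp only [CfsgLib.Blocks.coeff_classSum]
      split_ifs with h1 h2 <;> simp
      refine hsep g (g⁻¹ * u)⁻¹ h1 ((hconjinv _).mp h2) k ?_ ?_
      · rcases Nat.eq_zero_or_pos k with rfl | h
        · exact absurd (orderOf_eq_one_iff.mp (by rw [hk, pow_zero])) hu1
        · exact h
      · rw [inv_inv, mul_inv_cancel_left, hk]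
    · intro h
      exact absurd (Finset.mem_filter.mpr ⟨Finset.mem_univ _, 0, by simp⟩) h
  -- character side
  have homega : ∀ χ : IrrCharacter G, CfsgLib.Blocks.omega (χ : G → ℂ) z
      = centralChar (χ : G → ℂ) y * centralChar (χ : G → ℂ) x⁻¹ := fun χ => by
    rw [hz, CfsgLib.Blocks.omega_mul χ.2 (CfsgLib.Blocks.isClassElem_classSum y),
      CfsgLib.Blocks.omega_classSum (CfsgLib.CharTheory.IsIrrCharacter.isClassFunction χ.2),
      CfsgLib.Blocks.omega_classSum (CfsgLib.CharTheory.IsIrrCharacter.isClassFunction χ.2)]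
  refine mul_left_cancel₀ (Nat.cast_ne_zero.mpr hidx : ((Subgroup.centralizer ({x⁻¹} : Set G)).index : ℂ) ≠ 0) ?_
  rw [mul_ite, mul_one, mul_zero, ← hcomb]
  simp only [CfsgLib.Blocks.coeff_eq_sum_omega hzc, homega, ← Finset.mul_sum]
  rw [Finset.sum_comm, Finset.mul_sum, Finset.mul_sum]
  refine Finset.sum_congr rfl fun χ _ => ?_
  rw [← Finset.mul_sum, CfsgLib.Blocks.centralChar_apply _ x⁻¹]
  field_simp [CfsgLib.CharTheory.apply_one_ne_zero_of_isIrr χ.2]

/-- A character value outside `M` bounds the `p`-part of the degree by that of the class size. -/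
theorem factorization_charDegree_le_of_unit (hM : IsPModular p M) {χ : IrrCharacter G} {g : G}
    (hg : ¬ MemLocalIdeal M ((χ : G → ℂ) g)) :
    (charDegree (χ : G → ℂ)).factorization p ≤
      (Subgroup.centralizer ({g} : Set G)).index.factorization p := by
  by_contra hlt
  push Not at hlt
  apply hg
  set K := (Subgroup.centralizer ({g} : Set G)).index with hK
  have hK0 : K ≠ 0 := CfsgLib.Blocks.centralizer_index_ne_zero g
  have hp0 : (p : ℂ) ≠ 0 := by exact_mod_cast hp.out.ne_zero
  have e : (χ : G → ℂ) g = (p : ℂ) * (((charDegree (χ : G → ℂ) : ℕ) : ℂ) / ((p * K : ℕ) : ℂ)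
      * centralChar (χ : G → ℂ) g) := by
    have hd : ((charDegree (χ : G → ℂ) : ℕ) : ℂ) ≠ 0 :=
      Nat.cast_ne_zero.mpr (CfsgLib.Blocks.charDegree_ne_zero' χ)
    have hK' : (K : ℂ) ≠ 0 := Nat.cast_ne_zero.mpr hK0
    rw [CfsgLib.Blocks.centralChar_apply, ← CfsgLib.Blocks.charDegree_cast, ← hK, Nat.cast_mul]
    field_simp
  rw [e]
  refine CfsgLib.Blocks.memLocalIdeal_mul_right ((CfsgLib.Blocks.memLocalIdeal_natCast_iff hM p).mpr dvd_rfl) ?_
  refine CfsgLib.Blocks.memLocalRing_mul (CfsgLib.BlockLocal.memLocalRing_natCast_div hM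
    (Nat.mul_ne_zero hp.out.ne_zero hK0) ?_) (CfsgLib.Blocks.memLocalRing_centralChar χ g)
  rw [Nat.factorization_mul hp.out.ne_zero hK0, Finsupp.add_apply, hp.out.factorization_self]
  omega

theorem index_centralizer_inv (x : G) :
    (Subgroup.centralizer ({x⁻¹} : Set G)).index = (Subgroup.centralizer ({x} : Set G)).index := by
  congr 1
  ext g
  simp only [Subgroup.mem_centralizer_singleton_iff]
  exact ⟨fun h => (Commute.inv_right_iff.mp (show Commute g x⁻¹ from h)).eq,
    fun h => ((show Commute g x from h).inv_right).eq⟩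

/-- Brauer: `r` classes separated modulo `p`-elements give `r` blocks with defect group `D`. -/
theorem exists_blocks (hM : IsPModular p M) (D : Subgroup G) {r : ℕ} (x : Fin r → G)
    (hx : ∀ i j : Fin r, IsConj (x i) (x j) → i = j)
    (hD : ∀ i : Fin r, ∃ S : Sylow p ↥(Subgroup.centralizer ({x i} : Set G)),
      (S : Subgroup ↥(Subgroup.centralizer ({x i} : Set G))).map
        (Subgroup.centralizer ({x i} : Set G)).subtype = D)
    (hsep : ∀ i j : Fin r, ∀ g h : G, IsConj (x i) g → IsConj (x j) h →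
      ∀ k : ℕ, 0 < k → orderOf (g * h⁻¹) ≠ p ^ k) :
    ∃ B : Fin r → Set (IrrCharacter G), Function.Injective B ∧
      (∀ i : Fin r, IsPBlock M (B i) ∧ IsDefectGroup p M (B i) D) ∧
      ∀ χ : Fin r → IrrCharacter G,
        (∀ i : Fin r, χ i ∈ B i ∧ blockHeight p (B i) (χ i : G → ℂ) = 0) →
        ¬ MemLocalIdeal M (Matrix.det (Matrix.of fun i j : Fin r => (χ i : G → ℂ) (x j))) := by
  classical
  haveI := Fintype.ofFinite G
  haveI := Fintype.ofFinite (IrrCharacter G)
  have hcardD : ∀ i, Nat.card D = p ^ (Nat.card (Subgroup.centralizer ({x i} : Set G))).factorization p := by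
    intro i
    obtain ⟨S, hS⟩ := hD i
    rw [← hS, CfsgLib.Blocks.card_sylow_map]
  let v : IrrCharacter G → (Fin r → CfsgLib.Blocks.Res M) := fun χ j =>
    CfsgLib.Blocks.red M ⟨centralChar (χ : G → ℂ) (x j), CfsgLib.Blocks.memLocalRing_centralChar χ _⟩
  let A : IrrCharacter G → ℂ := fun χ => (Nat.card G : ℂ)⁻¹ *
    ∑ u ∈ Finset.univ.filter (fun g : G => ∃ k : ℕ, orderOf g = p ^ k), conj ((χ : G → ℂ) u)
  have hA : ∀ χ : IrrCharacter G, MemLocalRing M (A χ) := fun χ => memLocalRing_sum_pElements hM χ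
  let c : Fin r → IrrCharacter G → CfsgLib.Blocks.Res M := fun i χ =>
    CfsgLib.Blocks.red M ⟨(χ : G → ℂ) (x i)⁻¹ * A χ,
      CfsgLib.Blocks.memLocalRing_mul (CfsgLib.Blocks.memLocalRing_irr χ _) (hA χ)⟩
  have hid : ∀ i j, ∑ χ, c i χ * v χ j = if i = j then 1 else 0 := by
    intro i j
    have h := sum_omega_mul_eq (p := p) (x i) (x j) (fun g h => hsep j i g h)
    have hij : IsConj (x i) (x j) ↔ i = j := ⟨hx i j, fun h => h ▸ IsConj.refl _⟩
    simp only [hij] at h
    have h2 : (∑ χ : IrrCharacter G, (⟨(χ : G → ℂ) (x i)⁻¹ * A χ, CfsgLib.Blocks.memLocalRing_mul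
        (CfsgLib.Blocks.memLocalRing_irr χ _) (hA χ)⟩ : CfsgLib.Blocks.locRing M) *
        ⟨centralChar (χ : G → ℂ) (x j), CfsgLib.Blocks.memLocalRing_centralChar χ _⟩)
        = if i = j then 1 else 0 := by
      refine Subtype.ext ?_
      rw [AddSubmonoidClass.coe_finset_sum, apply_ite Subtype.val, OneMemClass.coe_one,
        ZeroMemClass.coe_zero, ← h]
      exact Finset.sum_congr rfl fun χ _ => mul_comm _ _
    have h3 := congrArg (CfsgLib.Blocks.red M) h2
    rw [map_sum, apply_ite (CfsgLib.Blocks.red M), map_one, map_zero] at h3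
    rw [← h3]
    exact Finset.sum_congr rfl fun χ _ => (map_mul _ _ _).symm
  let S : Set (IrrCharacter G) := {χ | (∃ i, c i χ ≠ 0) ∧ ∃ j, v χ j ≠ 0}
  have hspan : ⊤ ≤ Submodule.span (CfsgLib.Blocks.Res M) (v '' S) := by
    rw [← (Pi.basisFun (CfsgLib.Blocks.Res M) (Fin r)).span_eq, Submodule.span_le]
    rintro _ ⟨i, rfl⟩
    have he : (Pi.basisFun (CfsgLib.Blocks.Res M) (Fin r)) i = ∑ χ, c i χ • v χ := by
      funext j
      rw [Pi.basisFun_apply, Finset.sum_apply, Pi.single_apply]
      simp only [Pi.smul_apply, smul_eq_mul, hid, eq_comm]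
    rw [he]
    refine Submodule.sum_mem _ fun χ _ => ?_
    by_cases hc : c i χ = 0
    · rw [hc, zero_smul]; exact zero_mem _
    by_cases hv : v χ = 0
    · rw [hv, smul_zero]; exact zero_mem _
    · exact Submodule.smul_mem _ _ (Submodule.subset_span ⟨χ, ⟨⟨i, hc⟩, Function.ne_iff.mp hv⟩, rfl⟩)
  obtain ⟨b, hbsub, hbspan, hbli⟩ := exists_linearIndependent (CfsgLib.Blocks.Res M) (v '' S)
  let basis := Module.Basis.mk hbli (by rw [Subtype.range_coe, hbspan]; exact hspan)
  let e : Fin r ≃ b := (Pi.basisFun (CfsgLib.Blocks.Res M) (Fin r)).indexEquiv basis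
  choose χ₀ hχ₀S hχ₀v using fun i => hbsub (e i).2
  have hli : LinearIndependent (CfsgLib.Blocks.Res M) fun i => v (χ₀ i) := by
    simp only [hχ₀v]
    exact hbli.comp e e.injective
  have hvblock : ∀ χ ψ : IrrCharacter G, SameBlock M (χ : G → ℂ) (ψ : G → ℂ) → v χ = v ψ :=
    fun χ ψ h => funext fun j => (CfsgLib.Blocks.red_eq_red_iff _ _).mpr (h (x j))
  have hdef : ∀ i, IsDefectGroup p M (blockOf M (χ₀ i : G → ℂ)) D := by
    intro i
    have hB := CfsgLib.Blocks.isPBlock_blockOf (M := M) (χ₀ i)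
    obtain ⟨⟨i', hi'⟩, j, hj⟩ := hχ₀S i
    have hω : ¬ MemLocalIdeal M (centralChar (χ₀ i : G → ℂ) (x j)) :=
      (CfsgLib.Blocks.red_ne_zero_iff _).mp hj
    have hχu : ¬ MemLocalIdeal M ((χ₀ i : G → ℂ) (x i')⁻¹) := fun h =>
      (CfsgLib.Blocks.red_ne_zero_iff _).mp hi' (CfsgLib.Blocks.memLocalIdeal_mul_right h (hA _))
    obtain ⟨E, hE⟩ := CfsgLib.Blocks.exists_isDefectGroup hM hB
    obtain ⟨g, hg, T, rfl⟩ := hE
    obtain ⟨S', hS'⟩ := hD j
    obtain ⟨a, ha⟩ := CfsgLib.Blocks.exists_conj_le_sylow hM hB hg.2.1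
      (CfsgLib.Blocks.mem_blockOf_self (χ₀ i)) hω (CfsgLib.Blocks.isPGroup_sylow_map T)
      (CfsgLib.Blocks.sylow_map_le T) S'
    rw [hS'] at ha
    have hle : Nat.card D ≤ Nat.card ((T : Subgroup (Subgroup.centralizer ({g} : Set G))).map
        (Subgroup.centralizer ({g} : Set G)).subtype) := by
      rw [hcardD i', CfsgLib.Blocks.card_sylow_map]
      refine Nat.pow_le_pow_right hp.out.pos ?_
      have h1 := factorization_charDegree_le_of_unit hM hχu
      rw [index_centralizer_inv] at h1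
      have h2 := CfsgLib.Blocks.factorization_card_eq (p := p) (x i')
      have h3 := CfsgLib.Blocks.factorization_card_eq (p := p) g
      have h4 := CfsgLib.Blocks.sInf_factorization_eq hM hB hg
      have h5 : sInf ((fun χ : IrrCharacter G => (charDegree (χ : G → ℂ)).factorization p) ''
          blockOf M (χ₀ i : G → ℂ)) ≤ (charDegree (χ₀ i : G → ℂ)).factorization p :=
        Nat.sInf_le ⟨χ₀ i, CfsgLib.Blocks.mem_blockOf_self _, rfl⟩
      omega
    rw [← Subgroup.eq_of_le_of_card_ge ha (by rw [CfsgLib.Blocks.card_map_conj]; exact hle)]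
    exact CfsgLib.Blocks.isDefectGroup_map_conj ⟨g, hg, T, rfl⟩ a
  refine ⟨fun i => blockOf M (χ₀ i : G → ℂ), fun i j hij => hli.injective (hvblock _ _ ?_),
    fun i => ⟨CfsgLib.Blocks.isPBlock_blockOf _, hdef i⟩, fun χ hχ hdet => ?_⟩
  · simp only at hij
    have h := CfsgLib.Blocks.mem_blockOf_self (M := M) (χ₀ j)
    rw [← hij] at h
    exact CfsgLib.Blocks.mem_blockOf.mp h
  -- the determinant
  have hfac : ∀ i j, (Subgroup.centralizer ({x j} : Set G)).index.factorization p
      = (charDegree (χ i : G → ℂ)).factorization p := by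
    intro i j
    have h0 := (hχ i).2
    have hcd := CfsgLib.Blocks.card_isDefectGroup hM (CfsgLib.Blocks.isPBlock_blockOf _) (hdef i)
    rw [hcardD j] at hcd
    have hd := Nat.pow_right_injective hp.out.two_le hcd
    simp only [blockHeight] at h0
    unfold blockDefect at hd
    have h5 : sInf ((fun χ : IrrCharacter G => (charDegree (χ : G → ℂ)).factorization p) ''
        blockOf M (χ₀ i : G → ℂ)) ≤ (charDegree (χ i : G → ℂ)).factorization p :=
      Nat.sInf_le ⟨χ i, (hχ i).1, rfl⟩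
    obtain ⟨g, hg, -⟩ := hdef i
    have h4 := CfsgLib.Blocks.sInf_factorization_eq hM (CfsgLib.Blocks.isPBlock_blockOf _) hg
    have h3 := CfsgLib.Blocks.factorization_card_eq (p := p) g
    have h2 := CfsgLib.Blocks.factorization_card_eq (p := p) (x j)
    omega
  let N : Matrix (Fin r) (Fin r) (CfsgLib.Blocks.locRing M) := Matrix.of fun i j =>
    ⟨(χ i : G → ℂ) (x j), CfsgLib.Blocks.memLocalRing_irr _ _⟩
  let W : Matrix (Fin r) (Fin r) (CfsgLib.Blocks.locRing M) := Matrix.of fun i j =>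
    ⟨centralChar (χ i : G → ℂ) (x j), CfsgLib.Blocks.memLocalRing_centralChar _ _⟩
  have hNdet : ((N.det : CfsgLib.Blocks.locRing M) : ℂ)
      = Matrix.det (Matrix.of fun i j : Fin r => (χ i : G → ℂ) (x j)) := by
    rw [show ((N.det : CfsgLib.Blocks.locRing M) : ℂ) = (CfsgLib.Blocks.locRing M).subtype N.det from rfl,
      RingHom.map_det]
    rfl
  have hW : IsUnit (W.map (CfsgLib.Blocks.red M)) := by
    rw [← Matrix.linearIndependent_rows_iff_isUnit]
    convert hli using 1
    funext i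
    exact (hvblock _ _ (CfsgLib.Blocks.mem_blockOf.mp (hχ i).1)).symm
  -- `χ i (x j)` is a unit multiple of the central character
  rcases isEmpty_or_nonempty (Fin r) with hr | ⟨⟨i₀⟩⟩
  · rw [Matrix.det_isEmpty] at hdet
    exact CfsgLib.Blocks.not_memLocalIdeal_one hdet
  set d := (charDegree (χ i₀ : G → ℂ)).factorization p with hd
  have hfd : ∀ i, (charDegree (χ i : G → ℂ)).factorization p = d := fun i =>
    (hfac i i₀).symm.trans (hfac i₀ i₀)
  have hfi : ∀ j, (Subgroup.centralizer ({x j} : Set G)).index.factorization p = d := fun j => hfac i₀ j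
  have hpd : (p ^ d).factorization p = d := by rw [hp.out.factorization_pow, Finsupp.single_eq_same]
  have hu : ∀ i, MemLocalRing M ((charDegree (χ i : G → ℂ) : ℂ) / (p ^ d : ℕ)) ∧
      MemLocalRing M (((p ^ d : ℕ) : ℂ) / (charDegree (χ i : G → ℂ) : ℂ)) := fun i =>
    ⟨CfsgLib.BlockLocal.memLocalRing_natCast_div hM (pow_ne_zero _ hp.out.ne_zero) (by rw [hfd, hpd]),
      CfsgLib.BlockLocal.memLocalRing_natCast_div hM (CfsgLib.Blocks.charDegree_ne_zero' _)
        (by rw [hfd, hpd])⟩
  have hw : ∀ j, MemLocalRing M (((p ^ d : ℕ) : ℂ) / ((Subgroup.centralizer ({x j} : Set G)).index : ℂ)) ∧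
      MemLocalRing M (((Subgroup.centralizer ({x j} : Set G)).index : ℂ) / (p ^ d : ℕ)) := fun j =>
    ⟨CfsgLib.BlockLocal.memLocalRing_natCast_div hM (CfsgLib.Blocks.centralizer_index_ne_zero _)
        (by rw [hfi, hpd]),
      CfsgLib.BlockLocal.memLocalRing_natCast_div hM (pow_ne_zero _ hp.out.ne_zero) (by rw [hfi, hpd])⟩
  let U : Fin r → CfsgLib.Blocks.locRing M := fun i => ⟨_, (hu i).1⟩
  let V : Fin r → CfsgLib.Blocks.locRing M := fun j => ⟨_, (hw j).1⟩
  have hpd0 : ((p ^ d : ℕ) : ℂ) ≠ 0 := Nat.cast_ne_zero.mpr (pow_ne_zero _ hp.out.ne_zero)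
  have hdeg0 : ∀ i, (charDegree (χ i : G → ℂ) : ℂ) ≠ 0 := fun i =>
    Nat.cast_ne_zero.mpr (CfsgLib.Blocks.charDegree_ne_zero' _)
  have hidx0 : ∀ j, ((Subgroup.centralizer ({x j} : Set G)).index : ℂ) ≠ 0 := fun j =>
    Nat.cast_ne_zero.mpr (CfsgLib.Blocks.centralizer_index_ne_zero _)
  have hU : ∀ i, IsUnit (U i) := fun i => IsUnit.of_mul_eq_one ⟨_, (hu i).2⟩ (Subtype.ext (by
    show ((charDegree (χ i : G → ℂ) : ℂ) / (p ^ d : ℕ)) * (((p ^ d : ℕ) : ℂ) / (charDegree (χ i : G → ℂ) : ℂ)) = 1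
    have := hdeg0 i
    field_simp))
  have hV : ∀ j, IsUnit (V j) := fun j => IsUnit.of_mul_eq_one ⟨_, (hw j).2⟩ (Subtype.ext (by
    show (((p ^ d : ℕ) : ℂ) / ((Subgroup.centralizer ({x j} : Set G)).index : ℂ)) *
      (((Subgroup.centralizer ({x j} : Set G)).index : ℂ) / (p ^ d : ℕ)) = 1
    have := hidx0 j
    field_simp))
  have hNW : N = Matrix.diagonal U * W * Matrix.diagonal V := by
    ext i j
    rw [Matrix.mul_diagonal, Matrix.diagonal_mul]
    show (χ i : G → ℂ) (x j) = (charDegree (χ i : G → ℂ) : ℂ) / (p ^ d : ℕ)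
      * centralChar (χ i : G → ℂ) (x j) * (((p ^ d : ℕ) : ℂ) / ((Subgroup.centralizer ({x j} : Set G)).index : ℂ))
    rw [CfsgLib.Blocks.centralChar_apply, ← CfsgLib.Blocks.charDegree_cast]
    have := hdeg0 i
    have := hidx0 j
    field_simp
  have hWdet : IsUnit W.det := by
    have h := (Matrix.isUnit_iff_isUnit_det _).mp hW
    rw [← RingHom.mapMatrix_apply, ← RingHom.map_det] at h
    exact (isUnit_map_iff (CfsgLib.Blocks.red M) _).mp h
  have hNunit : IsUnit N.det := by
    rw [hNW, Matrix.det_mul, Matrix.det_mul, Matrix.det_diagonal, Matrix.det_diagonal]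
    exact (((IsUnit.prod_iff).mpr fun i _ => hU i).mul hWdet).mul ((IsUnit.prod_iff).mpr fun j _ => hV j)
  exact (CfsgLib.Blocks.isUnit_locRing_iff _).mp hNunit (hNdet ▸ hdet)

end CfsgLib.RealChar.BlockRank
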