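import Cfsg.Agent.Lib.Brauer.Induction
import Cfsg.Agent.Lib.RealChar.DegreeRatio
import Cfsg.Agent.Lib.RealChar.Extension
import Cfsg.Agent.Lib.CharTheory.Linear
import Cfsg.Agent.Lib.CharTheory.Ito
import Mathlib.GroupTheory.PGroup

/-!
# Dade's `p`-elementary detection and an extension criterion
-/

set_option autoImplicit false
set_option linter.unusedSectionVars false
set_option linter.style.haveILetI false
set_option backward.isDefEq.respectTransparency false

open scoped ComplexConjugate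
open Cfsg CfsgLib.CharTheory

namespace CfsgLib.RealChar

universe u

/-- An invariant integer function on a set acted on by a `p`-group is determined mod `p` by the
fixed points. -/
theorem sum_modEq_zero_of_pGroup {Q : Type*} [Group Q] {p : ℕ} [Fact p.Prime] (hQ : IsPGroup p Q)
    {X : Type*} [Fintype X] [MulAction Q X] (f : X → ℤ) (hf : ∀ (q : Q) x, f (q • x) = f x)
    (hfix : ∀ x ∈ MulAction.fixedPoints Q X, (p : ℤ) ∣ f x) : (p : ℤ) ∣ ∑ x, f x := by
  classical
  rw [← Finset.sum_fiberwise_of_maps_to (g := f) (t := Finset.univ.image f)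
    (fun x _ => Finset.mem_image_of_mem _ (Finset.mem_univ x))]
  refine Finset.dvd_sum fun v _ => ?_
  rw [Finset.sum_congr rfl (g := fun _ => v) fun x hx => (Finset.mem_filter.mp hx).2,
    Finset.sum_const, nsmul_eq_mul]
  by_cases hv : (p : ℤ) ∣ v
  · exact hv.mul_left _
  refine Dvd.dvd.mul_right ?_ _
  let F : SubMulAction Q X :=
    { carrier := {x | f x = v}
      smul_mem' := fun q x hx => (hf q x).trans hx }
  have h := hQ.card_modEq_card_fixedPoints F
  have h0 : Nat.card (MulAction.fixedPoints Q F) = 0 := by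
    haveI : IsEmpty (MulAction.fixedPoints Q F) := ⟨fun x => hv (by
      have hv' : f ((x : F) : X) = v := (x : F).2
      rw [← hv']
      exact hfix _ fun q => congrArg Subtype.val (x.2 q))⟩
    exact Nat.card_of_isEmpty
  rw [h0] at h
  have hcard : (Finset.univ.filter fun x => f x = v).card = Nat.card F := by
    rw [← Fintype.card_subtype, ← Nat.card_eq_fintype_card]
    rfl
  rw [hcard]
  exact Int.natCast_dvd_natCast.mpr (Nat.modEq_zero_iff_dvd.mp h)

variable {G : Type u} [Group G]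

section Detect

variable [Fintype G]

/-- Conjugation by an element of `E` on `E ⊓ N`. -/
def interConj (E N : Subgroup G) [N.Normal] : E →* MulAut ↥(E ⊓ N) where
  toFun g :=
    { toFun := fun x => ⟨(g : G) * x * (g : G)⁻¹, E.mul_mem (E.mul_mem g.2 x.2.1) (E.inv_mem g.2),
        (inferInstance : N.Normal).conj_mem _ x.2.2 _⟩
      invFun := fun x => ⟨(g : G)⁻¹ * x * (g : G), E.mul_mem (E.mul_mem (E.inv_mem g.2) x.2.1) g.2,
        by simpa using (inferInstance : N.Normal).conj_mem _ x.2.2 (g : G)⁻¹⟩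
      left_inv := fun x => Subtype.ext (by simp [mul_assoc])
      right_inv := fun x => Subtype.ext (by simp [mul_assoc])
      map_mul' := fun x y => Subtype.ext (by simp [mul_assoc]) }
  map_one' := MulEquiv.ext fun x => Subtype.ext (by simp)
  map_mul' a b := MulEquiv.ext fun x => Subtype.ext (by simp [mul_assoc])

theorem interConj_apply (E N : Subgroup G) [N.Normal] (g : E) (x : ↥(E ⊓ N)) :
    ((interConj E N g x : ↥(E ⊓ N)) : G) = (g : G) * x * (g : G)⁻¹ := rfl

/-- `[G : N] = [E : E ⊓ N]` forces `E ⊔ N = ⊤`. -/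
theorem sup_eq_top_of_relIndex (E N : Subgroup G) [N.Normal] (h : N.relIndex E = N.index) :
    E ⊔ N = ⊤ := by
  have h1 : N.relIndex (E ⊔ N) = N.index := by rw [Subgroup.relIndex_sup_right, h]
  have h2 := Subgroup.relIndex_mul_index (le_sup_right : N ≤ E ⊔ N)
  rw [h1] at h2
  have hpos : 0 < N.index := Nat.pos_of_ne_zero Subgroup.index_ne_zero_of_finite
  exact Subgroup.index_eq_one.mp (Nat.eq_of_mul_eq_mul_left hpos (h2.trans (mul_one _).symm))

/-- A `p`-elementary subgroup is generated by `E ⊓ N` and a `p`-subgroup, if `[G:N]` is a power of `p`. -/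
theorem exists_pSubgroup_sup_eq {p : ℕ} [Fact p.Prime] (E N : Subgroup G) [N.Normal]
    (hind : ∃ k : ℕ, N.index = p ^ k) :
    ∃ Q : Subgroup E, IsPGroup p Q ∧ Q ⊔ N.subgroupOf E = ⊤ := by
  obtain ⟨Q⟩ : Nonempty (Sylow p E) := inferInstance
  refine ⟨Q, Q.isPGroup', Subgroup.index_eq_one.mp ?_⟩
  obtain ⟨k, hk⟩ := hind
  have h1 : ((Q : Subgroup E) ⊔ N.subgroupOf E).index ∣ p ^ k := by
    refine (Subgroup.index_dvd_of_le le_sup_right).trans ?_
    rw [← hk]
    exact Subgroup.relIndex_dvd_index_of_normal N E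
  have h2 : ((Q : Subgroup E) ⊔ N.subgroupOf E).index ∣ (Q : Subgroup E).index :=
    Subgroup.index_dvd_of_le le_sup_left
  have h3 : Nat.Coprime (p ^ k) (Q : Subgroup E).index :=
    (((Fact.out : p.Prime).coprime_iff_not_dvd).mpr Q.not_dvd_index).pow_left k
  exact Nat.eq_one_of_dvd_coprimes h3 h1 h2

/-- Dade's detection of invariant characters by `p`-elementary subgroups. -/
theorem exists_elementary_detect (p : ℕ) [Fact p.Prime] (N : Subgroup G) [N.Normal] [Fintype N]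
    (hind : ∃ k : ℕ, N.index = p ^ k) (ϑ : N → ℂ) (hϑ : IsIrrCharacter N ϑ)
    (hinv : ∀ g, conjFun N ϑ g = ϑ) :
    ∃ E : Subgroup G, IsElementary p E ∧ E ⊔ N = ⊤ ∧
      ∀ [Fintype ↥(E ⊓ N)], ∃ φ : IrrCharacter ↥(E ⊓ N),
        (∀ (g : E) (x : ↥(E ⊓ N)),
          (φ : ↥(E ⊓ N) → ℂ) (interConj E N g x) = (φ : ↥(E ⊓ N) → ℂ) x) ∧
        ∃ m : ℕ, ¬ p ∣ m ∧
          classInner (fun x : ↥(E ⊓ N) => ϑ ⟨x, x.2.2⟩) (φ : ↥(E ⊓ N) → ℂ) = m := by
  classical
  have hp : p.Prime := Fact.out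
  by_contra hcon
  obtain ⟨m₀, hm₀, hspan⟩ := CfsgLib.Brauer.exists_const_mem_elemSpan (G := G) p hp
  let F : G → ℂ := fun g => if h : g ∈ N then ϑ ⟨g, h⟩ * conj (ϑ ⟨g, h⟩) else 0
  have hFN : ∀ n : N, F n = ϑ n * conj (ϑ n) := fun n => by simp [F]
  have hFcls : ∀ g x : G, F (x * g * x⁻¹) = F g := by
    intro g x
    by_cases h : g ∈ N
    · have h' : x * g * x⁻¹ ∈ N := (inferInstance : N.Normal).conj_mem g h x
      have he : ϑ ⟨x * g * x⁻¹, h'⟩ = ϑ ⟨g, h⟩ := by
        rw [← congrFun (hinv x) ⟨g, h⟩]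
        exact congrArg ϑ (Subtype.ext (MulAut.conjNormal_apply x ⟨g, h⟩).symm)
      simp only [F, dif_pos h, dif_pos h', he]
    · have h' : x * g * x⁻¹ ∉ N := fun h' => h (by
        have := (inferInstance : N.Normal).conj_mem _ h' x⁻¹
        simpa [mul_assoc] using this)
      simp only [F, dif_neg h, dif_neg h']
  let L : (G → ℂ) →ₗ[ℂ] ℂ :=
    { toFun := fun f => (Nat.card N : ℂ)⁻¹ * ∑ g : G, f g * F g
      map_add' := fun a b => by simp [add_mul, Finset.sum_add_distrib, mul_add]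
      map_smul' := fun z a => by simp [Finset.mul_sum, mul_assoc, mul_left_comm] }
  have hLone : L (fun _ => (m₀ : ℂ)) = m₀ := by
    show (Nat.card N : ℂ)⁻¹ * ∑ g : G, (m₀ : ℂ) * F g = m₀
    have h1 : ∑ g : G, F g = (Nat.card N : ℂ) * classInner ϑ ϑ := by
      rw [classInner, ← mul_assoc, mul_inv_cancel₀ (Nat.cast_ne_zero.mpr Nat.card_pos.ne'), one_mul,
        ← Finset.sum_congr rfl fun n _ => hFN n,
        ← Finset.sum_subtype (Finset.univ.filter (· ∈ N)) (by simp) F, Finset.sum_filter]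
      exact Finset.sum_congr rfl fun g _ => by
        by_cases h : g ∈ N
        · rw [if_pos h]
        · simp only [F, dif_neg h, if_neg h]
    rw [← Finset.mul_sum, h1, classInner_self_of_isIrr hϑ, mul_one, mul_comm (m₀ : ℂ),
      inv_mul_cancel_left₀ (Nat.cast_ne_zero.mpr Nat.card_pos.ne')]
  suffices hdvd : ∃ t : ℤ, L (fun _ => (m₀ : ℂ)) = ((p : ℤ) * t : ℤ) by
    obtain ⟨t, ht⟩ := hdvd
    rw [hLone] at ht
    exact hm₀ ⟨t, by exact_mod_cast ht⟩
  suffices hgen : ∀ f ∈ CfsgLib.Brauer.elemSpan {p} G, ∃ t : ℤ, L f = ((p : ℤ) * t : ℤ) from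
    hgen _ hspan
  intro f hf
  unfold CfsgLib.Brauer.elemSpan at hf
  induction hf using AddSubgroup.closure_induction with
  | zero => exact ⟨0, by simp⟩
  | add x y _ _ hx hy =>
    obtain ⟨s, hs⟩ := hx
    obtain ⟨t, ht⟩ := hy
    exact ⟨s + t, by rw [map_add, hs, ht]; push_cast; ring⟩
  | neg x _ hx =>
    obtain ⟨s, hs⟩ := hx
    exact ⟨-s, by rw [map_neg, hs]; push_cast; ring⟩
  | mem f hf =>
    obtain ⟨E, ψ, ⟨q, hq, -, hE⟩, hψ, rfl⟩ := hf
    rw [Set.mem_singleton_iff] at hq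
    subst hq
    haveI := Fintype.ofFinite E
    haveI := Fintype.ofFinite ↥(E ⊓ N)
    haveI := Fintype.ofFinite (IrrCharacter ↥(E ⊓ N))
    set D := E ⊓ N with hD
    let ψD : D → ℂ := fun y => ψ ⟨y, y.2.1⟩
    -- the value of `L`
    have hval : L (indFun E ψ) = (Nat.card G : ℂ) * (Nat.card D : ℂ) /
        ((Nat.card N : ℂ) * (Nat.card E : ℂ)) *
        ((Nat.card D : ℂ)⁻¹ * ∑ y : D, ψD y * (ϑ ⟨y, y.2.2⟩ * conj (ϑ ⟨y, y.2.2⟩))) := by
      show (Nat.card N : ℂ)⁻¹ * ∑ g : G, indFun E ψ g * F g = _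
      have h1 : ∑ g : G, indFun E ψ g * F g
          = (Nat.card E : ℂ)⁻¹ * ((Nat.card G : ℂ) * ∑ y : G, extendByZero E ψ y * F y) := by
        simp only [indFun, mul_assoc, Finset.sum_mul, ← Finset.mul_sum]
        congr 1
        rw [Finset.sum_comm, ← nsmul_eq_mul, Nat.card_eq_fintype_card, ← Finset.card_univ,
          ← Finset.sum_const]
        refine Finset.sum_congr rfl fun x _ => ?_
        refine (Fintype.sum_equiv (MulAut.conj x).toEquiv _ _ fun y => ?_).symm
        simp only [MulEquiv.toEquiv_eq_coe, EquivLike.coe_coe, MulAut.conj_apply, hFcls]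
        rw [show x⁻¹ * (x * y * x⁻¹ * x) = y by group]
      have h2 : ∑ y : G, extendByZero E ψ y * F y
          = ∑ y : D, ψD y * (ϑ ⟨y, y.2.2⟩ * conj (ϑ ⟨y, y.2.2⟩)) := by
        have h3 : ∀ y : D, extendByZero E ψ (y : G) * F y
            = ψD y * (ϑ ⟨y, y.2.2⟩ * conj (ϑ ⟨y, y.2.2⟩)) := fun y => by
          rw [CfsgLib.Frobenius.extendByZero_of_mem E ψ y.2.1]
          exact congrArg _ (hFN ⟨y, y.2.2⟩)
        rw [← Finset.sum_congr rfl fun y _ => h3 y,
          ← Finset.sum_subtype (Finset.univ.filter (· ∈ D)) (by simp)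
            (fun y => extendByZero E ψ y * F y), Finset.sum_filter]
        refine Finset.sum_congr rfl fun y _ => ?_
        by_cases h : y ∈ D
        · rw [if_pos h]
        rw [if_neg h]
        by_cases hyN : y ∈ N
        · rw [CfsgLib.Frobenius.extendByZero_of_not_mem E ψ fun hyE => h ⟨hyE, hyN⟩, zero_mul]
        · simp only [F, dif_neg hyN, mul_zero]
      rw [h1, h2]
      have : (Nat.card D : ℂ) ≠ 0 := Nat.cast_ne_zero.mpr Nat.card_pos.ne'
      field_simp
    -- the inner sum, as an integer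
    have hϑD : IsCharacter D (fun y : D => ϑ ⟨y, y.2.2⟩) :=
      CfsgLib.Coherence.isCharacter_comp (IsIrrCharacter.isCharacter hϑ)
        (Subgroup.inclusion (inf_le_right : E ⊓ N ≤ N))
    have hψD : IsCharacter D ψD :=
      CfsgLib.Coherence.isCharacter_comp hψ (Subgroup.inclusion (inf_le_left : E ⊓ N ≤ E))
    obtain ⟨m, hm⟩ := IsCharacter.exists_sum hϑD
    choose k hk using fun w : IrrCharacter D × IrrCharacter D =>
      exists_classInner_eq_int (IsCharacter.isGeneralizedCharacter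
        (CfsgLib.CharTheory.isCharacter_mul hψD (IsIrrCharacter.isCharacter w.1.2)))
        (IsIrrCharacter.isGeneralizedCharacter w.2.2)
    have hI : (Nat.card D : ℂ)⁻¹ * ∑ y : D, ψD y * (ϑ ⟨y, y.2.2⟩ * conj (ϑ ⟨y, y.2.2⟩))
        = ((∑ w : IrrCharacter D × IrrCharacter D, (m w.1 : ℤ) * m w.2 * k w : ℤ) : ℂ) := by
      push_cast
      rw [Fintype.sum_prod_type]
      simp only [← hk]
      have e1 : (Nat.card D : ℂ)⁻¹ * ∑ y : D, ψD y * (ϑ ⟨y, y.2.2⟩ * conj (ϑ ⟨y, y.2.2⟩))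
          = classInner (ψD * fun y : D => ϑ ⟨y, y.2.2⟩) (fun y : D => ϑ ⟨y, y.2.2⟩) := by
        simp [classInner, mul_assoc]
      rw [e1]
      conv_lhs => rw [hm]
      rw [Finset.mul_sum, classInner_sum_left]
      refine Finset.sum_congr rfl fun φ _ => ?_
      rw [mul_smul_comm, classInner_smul_left, classInner_sum_right, Finset.mul_sum]
      refine Finset.sum_congr rfl fun φ' _ => ?_
      rw [classInner_smul_right, map_natCast]
      ring
    rw [hI] at hval
    -- the index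
    obtain ⟨K, hK⟩ := hind
    have hrel : Nat.card E = N.relIndex E * Nat.card D := by
      rw [Subgroup.relIndex, ← (N.subgroupOf E).index_mul_card]
      congr 1
      refine Nat.card_congr
        { toFun := fun y => ⟨y.1.1, y.1.2, y.2⟩
          invFun := fun y => ⟨⟨y.1, y.2.1⟩, y.2.2⟩
          left_inv := fun _ => rfl
          right_inv := fun _ => rfl }
    obtain ⟨J, hJ, hJ'⟩ := (Nat.dvd_prime_pow hp).mp
      (hK ▸ Subgroup.relIndex_dvd_index_of_normal N E)
    rw [← N.index_mul_card, hK, hrel, hJ', Nat.cast_mul, Nat.cast_mul] at hval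
    obtain ⟨R, rfl⟩ : ∃ R, K = J + R := ⟨K - J, by omega⟩
    set S := ∑ w : IrrCharacter D × IrrCharacter D, (m w.1 : ℤ) * m w.2 * k w with hS
    have hval' : L (indFun E ψ) = ((q : ℤ) ^ R * S : ℤ) := by
      rw [hval]
      have h1 : (Nat.card D : ℂ) ≠ 0 := Nat.cast_ne_zero.mpr Nat.card_pos.ne'
      have h2 : (Nat.card N : ℂ) ≠ 0 := Nat.cast_ne_zero.mpr Nat.card_pos.ne'
      have h3 : (q : ℂ) ≠ 0 := Nat.cast_ne_zero.mpr hp.ne_zero
      push_cast
      rw [pow_add]
      field_simp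
    rcases Nat.eq_zero_or_pos R with hR | hR
    swap
    · obtain ⟨R', rfl⟩ := Nat.exists_eq_succ_of_ne_zero hR.ne'
      exact ⟨(q : ℤ) ^ R' * S, by rw [hval', pow_succ', mul_assoc]⟩
    subst hR
    have htop : E ⊔ N = ⊤ := sup_eq_top_of_relIndex E N (by rw [hJ', hK, add_zero])
    suffices hdS : (q : ℤ) ∣ S by
      obtain ⟨t, ht⟩ := hdS
      exact ⟨t, by rw [hval', pow_zero, one_mul, ht]⟩
    have hfixed : ∀ φ : IrrCharacter D,
        (∀ (g : E) (x : D), (φ : D → ℂ) (interConj E N g x) = (φ : D → ℂ) x) → q ∣ m φ := by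
      intro φ hφ
      by_contra hnd
      refine hcon ⟨E, hE, htop, fun {inst} => ⟨φ, hφ, m φ, hnd, ?_⟩⟩
      rw [Subsingleton.elim inst (inferInstance : Fintype D), hm]
      exact classInner_sum_irr _ φ
    obtain ⟨Q, hQ, hQtop⟩ := exists_pSubgroup_sup_eq E N ⟨J + 0, hK⟩
    let act : Q → IrrCharacter D → IrrCharacter D := fun g φ =>
      ⟨fun x => (φ : D → ℂ) (interConj E N ((g : E))⁻¹ x),
        isIrrCharacter_comp_mulEquiv φ.2 (interConj E N ((g : E))⁻¹)⟩
    letI : MulAction Q (IrrCharacter D) :=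
      { smul := act
        one_smul := fun φ => Subtype.ext (funext fun x => by
          show (φ : D → ℂ) (interConj E N (((1 : Q) : E))⁻¹ x) = _
          rw [OneMemClass.coe_one, inv_one, map_one]
          rfl)
        mul_smul := fun a b φ => Subtype.ext (funext fun x => by
          show (φ : D → ℂ) (interConj E N (((a * b : Q) : E))⁻¹ x) = _
          rw [Subgroup.coe_mul, mul_inv_rev, map_mul]
          rfl) }
    have hϑinv : ∀ (g : E) (x : D),
        ϑ ⟨(interConj E N g x : D), (interConj E N g x).2.2⟩ = ϑ ⟨x, x.2.2⟩ := fun g x => by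
      rw [← congrFun (hinv g) ⟨x, x.2.2⟩]
      exact congrArg ϑ (Subtype.ext (MulAut.conjNormal_apply (g : G) (⟨(x : G), x.2.2⟩ : N)).symm)
    have hψinv : ∀ (g : E) (x : D), ψD (interConj E N g x) = ψD x := fun g x =>
      IsCharacter.isClassFunction hψ ⟨x, x.2.1⟩ g
    have hinner : ∀ (g : Q) (a b : D → ℂ),
        classInner (fun x => a (interConj E N ((g : E))⁻¹ x)) (fun x => b (interConj E N ((g : E))⁻¹ x))
          = classInner a b := fun g a b => by
      simp only [classInner]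
      congr 1
      exact Fintype.sum_equiv (interConj E N ((g : E))⁻¹).toEquiv _ _ fun x => rfl
    have hminv : ∀ (g : Q) (φ : IrrCharacter D), m (g • φ) = m φ := fun g φ => by
      have h1 := classInner_sum_irr (fun φ => (m φ : ℂ)) (g • φ)
      have h2 := classInner_sum_irr (fun φ => (m φ : ℂ)) φ
      rw [← hm] at h1 h2
      have h3 := hinner g (fun y : D => ϑ ⟨y, y.2.2⟩) (φ : D → ℂ)
      simp only [hϑinv] at h3
      exact_mod_cast (h1.symm.trans (h3.trans h2) : (m (g • φ) : ℂ) = m φ)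
    have hkinv : ∀ (g : Q) (w : IrrCharacter D × IrrCharacter D), k (g • w) = k w := fun g w => by
      have h3 := hinner g (ψD * (w.1 : D → ℂ)) (w.2 : D → ℂ)
      simp only [Pi.mul_apply, hψinv] at h3
      have h4 : classInner (ψD * ((g • w).1 : D → ℂ)) ((g • w).2 : D → ℂ)
          = classInner (ψD * (w.1 : D → ℂ)) (w.2 : D → ℂ) := h3
      rw [hk, hk] at h4
      exact_mod_cast h4
    refine sum_modEq_zero_of_pGroup hQ _ (fun g w => ?_) fun w hw => ?_
    · rw [Prod.smul_fst, Prod.smul_snd, hminv, hminv, hkinv]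
    · have hw1 : ∀ (g : E) (x : D), (w.1 : D → ℂ) (interConj E N g x) = (w.1 : D → ℂ) x := by
        let S' : Subgroup E :=
          { carrier := {g | ∀ x : D, (w.1 : D → ℂ) (interConj E N g x) = (w.1 : D → ℂ) x}
            one_mem' := fun x => by rw [map_one]; rfl
            mul_mem' := fun {a b} ha hb x => by rw [map_mul, MulAut.mul_apply, ha, hb]
            inv_mem' := fun {a} ha x => by
              rw [← ha, ← MulAut.mul_apply, ← map_mul, mul_inv_cancel, map_one]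
              rfl }
        intro g x
        have hle : Q ⊔ N.subgroupOf E ≤ S' := by
          refine sup_le (fun a ha x => ?_) fun a ha x => ?_
          · have h1 := congrArg (fun v : IrrCharacter D × IrrCharacter D => (v.1 : D → ℂ) x)
              (hw ⟨a⁻¹, Q.inv_mem ha⟩)
            have h2 : (w.1 : D → ℂ) (interConj E N (a⁻¹)⁻¹ x) = (w.1 : D → ℂ) x := h1
            rwa [inv_inv] at h2
          · exact IsIrrCharacter.isClassFunction w.1.2 x (⟨(a : G), a.2, ha⟩ : D)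
        exact (hle (hQtop ▸ Subgroup.mem_top g)) x
      exact ((Int.natCast_dvd_natCast.mpr (hfixed w.1 hw1)).mul_right _).mul_right _

end Detect

section Extend

open Representation Module

variable (N : Subgroup G) [N.Normal] {d : ℕ} (ρ : Representation ℂ N (Fin d → ℂ)) [ρ.IsIrreducible]

/-- If a representation `τ` of `E`, with `E N = G` and `[G:N] = p^k`, occurs in `ρ` on `E ⊓ N` with
multiplicity prime to `p`, then the invariant `ρ` extends to `G`. -/
theorem exists_extension_of_mult_not_dvd [Finite G]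
    (hinv : ∀ (g : G) (n : N), ρ.character (MulAut.conjNormal g n) = ρ.character n) {p k : ℕ}
    (hp : p.Prime) (hind : N.index = p ^ k) (E : Subgroup G) (htop : E ⊔ N = ⊤) {e : ℕ}
    (τ : Representation ℂ E (Fin e → ℂ))
    (hm : ¬ p ∣ finrank ℂ (IntertwiningMap
      (τ.comp (Subgroup.inclusion (inf_le_left : E ⊓ N ≤ E)))
      (ρ.comp (Subgroup.inclusion (inf_le_right : E ⊓ N ≤ N))))) :
    ∃ σ : Representation ℂ G (Fin d → ℂ), ∀ n : N, σ n = ρ n := by
  classical
  set a := τ.comp (Subgroup.inclusion (inf_le_left : E ⊓ N ≤ E)) with ha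
  set b := ρ.comp (Subgroup.inclusion (inf_le_right : E ⊓ N ≤ N)) with hb
  set m := finrank ℂ (IntertwiningMap a b) with hm'
  set K := E.comap (interFst N ρ) with hK
  let fE : K →* E :=
    ((interFst N ρ).comp K.subtype).codRestrict E fun x => x.2
  let T : K →* Module.End ℂ (Fin d → ℂ) := (Units.coeHom _).comp ((interSnd N ρ).comp K.subtype)
  have hact : ∀ (x : K) (f : IntertwiningMap a b) (y : ↥(E ⊓ N)),
      (T x ∘ₗ f.toLinearMap ∘ₗ τ (fE x)⁻¹) ∘ₗ a y = b y ∘ₗ (T x ∘ₗ f.toLinearMap ∘ₗ τ (fE x)⁻¹) := by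
    intro x f y
    set g : E := fE x with hg
    let y' : ↥(E ⊓ N) := ⟨(g : G)⁻¹ * y * g, E.mul_mem (E.mul_mem (E.inv_mem g.2) y.2.1) g.2,
      by simpa using (inferInstance : N.Normal).conj_mem _ y.2.2 (g : G)⁻¹⟩
    have h1 : τ g⁻¹ ∘ₗ a y = a y' ∘ₗ τ g⁻¹ := by
      show τ g⁻¹ * τ (Subgroup.inclusion inf_le_left y) = τ (Subgroup.inclusion inf_le_left y') * τ g⁻¹
      rw [← map_mul, ← map_mul]
      congr 1
      exact Subtype.ext (by simp [y', mul_assoc])
    have h2 : T x ∘ₗ b y' = b y ∘ₗ T x := by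
      have hh := (x : interGroup N ρ).2 (Subgroup.inclusion inf_le_right y')
      have he : MulAut.conjNormal (interFst N ρ x) (Subgroup.inclusion inf_le_right y' : N)
          = Subgroup.inclusion inf_le_right y := Subtype.ext (by
        rw [MulAut.conjNormal_apply]
        show (g : G) * ((g : G)⁻¹ * y * g) * (g : G)⁻¹ = y
        group)
      change (interSnd N ρ x : Module.End ℂ (Fin d → ℂ)) * _
        = ρ (MulAut.conjNormal (interFst N ρ x) (Subgroup.inclusion inf_le_right y' : N)) * _ at hh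
      rw [he] at hh
      exact hh
    have h3 : f.toLinearMap ∘ₗ a y' = b y' ∘ₗ f.toLinearMap := f.isIntertwining' y'
    calc (T x ∘ₗ f.toLinearMap ∘ₗ τ g⁻¹) ∘ₗ a y
        = T x ∘ₗ f.toLinearMap ∘ₗ (τ g⁻¹ ∘ₗ a y) := rfl
      _ = T x ∘ₗ (f.toLinearMap ∘ₗ a y') ∘ₗ τ g⁻¹ := by rw [h1]; rfl
      _ = (T x ∘ₗ b y') ∘ₗ f.toLinearMap ∘ₗ τ g⁻¹ := by rw [h3]; rfl
      _ = _ := by rw [h2]; rfl
  let W : Representation ℂ K (IntertwiningMap a b) :=
    { toFun := fun x =>
        { toFun := fun f => ⟨_, hact x f⟩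
          map_add' := fun f g => IntertwiningMap.ext (by simp [LinearMap.add_comp, LinearMap.comp_add])
          map_smul' := fun z f => IntertwiningMap.ext (LinearMap.ext fun v => map_smul (T x) z _) }
      map_one' := LinearMap.ext fun f => IntertwiningMap.ext (by simp [Module.End.one_eq_id])
      map_mul' := fun x y => LinearMap.ext fun f => IntertwiningMap.ext (by
        simp only [LinearMap.coe_mk, AddHom.coe_mk, Module.End.mul_apply, map_mul, mul_inv_rev]
        rfl) }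
  let δ : K →* ℂˣ := (LinearMap.det.comp W).toHomUnits
  have hδs : ∀ z : ℂˣ, ∀ h : interScalar N ρ z ∈ K, δ ⟨interScalar N ρ z, h⟩ = z ^ m := by
    intro z h
    refine Units.ext ?_
    show LinearMap.det (W ⟨interScalar N ρ z, h⟩) = ((z ^ m : ℂˣ) : ℂ)
    have hW : W ⟨interScalar N ρ z, h⟩ = (z : ℂ) • LinearMap.id := by
      refine LinearMap.ext fun f => IntertwiningMap.ext (LinearMap.ext fun v => ?_)
      show T ⟨interScalar N ρ z, h⟩ (f.toLinearMap (τ (fE ⟨interScalar N ρ z, h⟩)⁻¹ v)) = _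
      rw [show fE ⟨interScalar N ρ z, h⟩ = 1 from Subtype.ext (interFst_scalar N ρ z), inv_one, map_one]
      rfl
    rw [hW, LinearMap.det_smul, LinearMap.det_id, mul_one, ← hm', Units.val_pow_eq_pow_val]
  have hδN : ∀ n : N, ∀ h : interIncl N ρ n ∈ K, δ ⟨interIncl N ρ n, h⟩ = 1 := by
    intro n h
    refine Units.ext ?_
    show LinearMap.det (W ⟨interIncl N ρ n, h⟩) = 1
    have hW : W ⟨interIncl N ρ n, h⟩ = 1 := by
      refine LinearMap.ext fun f => IntertwiningMap.ext (LinearMap.ext fun v => ?_)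
      show ρ n (f.toLinearMap (τ (⟨n, h⟩ : E)⁻¹ v)) = f.toLinearMap v
      have h3 : f.toLinearMap (a ⟨n, h, n.2⟩ (τ (⟨n, h⟩ : E)⁻¹ v))
          = b ⟨n, h, n.2⟩ (f.toLinearMap (τ (⟨n, h⟩ : E)⁻¹ v)) :=
        LinearMap.congr_fun (f.isIntertwining' ⟨n, h, n.2⟩) _
      rw [show ρ n = b ⟨n, h, n.2⟩ from rfl, ← h3]
      show f.toLinearMap ((τ (⟨n, h⟩ : E) * τ (⟨n, h⟩ : E)⁻¹) v) = _
      rw [← map_mul, mul_inv_cancel, map_one]
      rfl
    rw [hW, map_one]
  -- extend `δ` to the whole group, trivially on the copy of `N`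
  have hdec : ∀ x : interGroup N ρ, ∃ n : N, (interIncl N ρ n)⁻¹ * x ∈ K := by
    intro x
    obtain ⟨n, hn, g, hg, hng⟩ := Subgroup.mem_sup_of_normal_left.mp
      (show interFst N ρ x ∈ N ⊔ E by rw [sup_comm, htop]; trivial)
    refine ⟨⟨n, hn⟩, ?_⟩
    show interFst N ρ ((interIncl N ρ ⟨n, hn⟩)⁻¹ * x) ∈ E
    rw [map_mul, map_inv, interFst_incl, ← hng, inv_mul_cancel_left]
    exact hg
  choose ν hν using hdec
  have hwd : ∀ (n n' : N) (x : interGroup N ρ) (h : (interIncl N ρ n)⁻¹ * x ∈ K)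
      (h' : (interIncl N ρ n')⁻¹ * x ∈ K),
      δ ⟨_, h⟩ = δ ⟨_, h'⟩ := by
    intro n n' x h h'
    have hq : interIncl N ρ (n⁻¹ * n') ∈ K := by
      have := K.mul_mem h (K.inv_mem h')
      rwa [mul_inv_rev, inv_inv, mul_assoc, mul_inv_cancel_left, ← map_inv, ← map_mul] at this
    have e : (⟨_, h⟩ : K) = ⟨_, hq⟩ * ⟨_, h'⟩ := Subtype.ext (by
      show (interIncl N ρ n)⁻¹ * x = interIncl N ρ (n⁻¹ * n') * ((interIncl N ρ n')⁻¹ * x)
      rw [map_mul, map_inv, mul_assoc, mul_inv_cancel_left])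
    rw [e, map_mul, hδN _ hq, one_mul]
  let δ' : interGroup N ρ →* ℂˣ := MonoidHom.mk' (fun x => δ ⟨_, hν x⟩) (by
    intro x y
    set g := (interIncl N ρ (ν x))⁻¹ * x with hg
    have hkey : (interIncl N ρ (ν x * MulAut.conjNormal (interFst N ρ g) (ν y)))⁻¹ * (x * y)
        = g * ((interIncl N ρ (ν y))⁻¹ * y) := by
      rw [map_mul, mul_inv_rev, ← interIncl_conj, hg]
      group
    have hmem : (interIncl N ρ (ν x * MulAut.conjNormal (interFst N ρ g) (ν y)))⁻¹ * (x * y) ∈ K :=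
      hkey ▸ K.mul_mem (hν x) (hν y)
    rw [hwd _ _ _ (hν (x * y)) hmem, ← map_mul]
    exact congrArg δ (Subtype.ext hkey))
  have hδ'N : ∀ n : N, δ' (interIncl N ρ n) = 1 := fun n => by
    have h1 : (interIncl N ρ n)⁻¹ * interIncl N ρ n ∈ K := by
      rw [inv_mul_cancel]; exact K.one_mem
    show δ ⟨_, hν (interIncl N ρ n)⟩ = 1
    rw [hwd _ n _ _ h1, ← map_one δ]
    exact congrArg δ (Subtype.ext (inv_mul_cancel _))
  have hδ's : ∀ z, δ' (interScalar N ρ z) = z ^ m := fun z => by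
    have hz : interScalar N ρ z ∈ K := by
      show interFst N ρ (interScalar N ρ z) ∈ E
      rw [interFst_scalar]; exact E.one_mem
    have h1 : (interIncl N ρ (1 : N))⁻¹ * interScalar N ρ z ∈ K := by
      rw [map_one, inv_one, one_mul]; exact hz
    show δ ⟨_, hν (interScalar N ρ z)⟩ = z ^ m
    rw [hwd _ 1 _ _ h1, ← hδs z hz]
    exact congrArg δ (Subtype.ext (show (interIncl N ρ (1 : N))⁻¹ * interScalar N ρ z
      = interScalar N ρ z by rw [map_one, inv_one, one_mul]))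
  obtain ⟨φ, hφN, hφs⟩ := exists_hom_pow_index hinv N le_rfl ρ fun n => rfl
  obtain ⟨s, t, hst⟩ : ∃ s t : ℤ, s * m + t * (p ^ k : ℕ) = 1 :=
    Int.isCoprime_iff_nat_coprime.mpr (by
      simpa using ((hp.coprime_iff_not_dvd.mpr hm).pow_left k).symm)
  refine exists_extension_of_hom hinv
    ((zpowGroupHom s).comp δ' * (zpowGroupHom t).comp φ) (fun n => ?_) fun z => ?_
  · simp [hδ'N n, hφN n]
  · simp only [MonoidHom.mul_apply, MonoidHom.comp_apply, zpowGroupHom_apply, hδ's, hφs, hind]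
    rw [← zpow_natCast z m, ← zpow_natCast z (p ^ k), ← zpow_mul, ← zpow_mul, ← zpow_add,
      mul_comm (m : ℤ), mul_comm ((p ^ k : ℕ) : ℤ), hst, zpow_one]

end Extend

/-- A linear character of a subgroup of a finite abelian group extends. -/
theorem exists_hom_extension {A : Type u} [Group A] [Finite A] (hA : ∀ a b : A, a * b = b * a)
    (H : Subgroup A) (lam : H →* ℂˣ) : ∃ μ : A →* ℂˣ, ∀ h : H, μ h = lam h := by
  letI : CommGroup A := { (inferInstance : Group A) with mul_comm := hA }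
  haveI : NeZero (Monoid.exponent A) := ⟨Monoid.exponent_ne_zero_of_finite⟩
  haveI : HasEnoughRootsOfUnity ℂ (Monoid.exponent A) := inferInstance
  obtain ⟨μ, hμ⟩ := MonoidHom.restrict_surjective ℂ H lam
  exact ⟨μ, fun h => by rw [← hμ]; rfl⟩

/-- The extension criterion with a central Sylow intersection. -/
theorem exists_extension_of_central_sylow [Fintype G] (p : ℕ) [Fact p.Prime] (N : Subgroup G)
    [N.Normal] (hind : ∃ k : ℕ, N.index = p ^ k) (P : Sylow p G)
    (hcent : ∀ x ∈ (P : Subgroup G) ⊓ N, ∀ y ∈ (P : Subgroup G), x * y = y * x)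
    (hlin : ∀ lam : ↥((P : Subgroup G) ⊓ N) →* ℂˣ, ∃ μ : ↥(P : Subgroup G) →* ℂˣ,
      ∀ x : ↥((P : Subgroup G) ⊓ N), μ ⟨(x : G), x.2.1⟩ = lam x)
    (ϑ : N → ℂ) (hϑ : IsIrrCharacter N ϑ) (hinv : ∀ g, conjFun N ϑ g = ϑ) :
    ∃ χ : G → ℂ, IsIrrCharacter G χ ∧ ∀ n : N, χ n = ϑ n := by
  classical
  have hp : p.Prime := Fact.out
  haveI := Fintype.ofFinite N
  obtain ⟨k, hk⟩ := hind
  obtain ⟨E, hE, htop, hdet⟩ := exists_elementary_detect p N ⟨k, hk⟩ ϑ hϑ hinv
  haveI := Fintype.ofFinite ↥(E ⊓ N)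
  obtain ⟨φ, -, m, hpm, hmφ⟩ := hdet
  obtain ⟨C, hCc, hCcyc, hCcop, j, hCi⟩ := CfsgLib.Brauer.isElementary_iff.mp hE
  obtain ⟨Q⟩ : Nonempty (Sylow p E) := inferInstance
  obtain ⟨W, hW⟩ := IsPGroup.exists_le_sylow (Q.isPGroup'.map E.subtype)
  obtain ⟨a, ha⟩ := MulAction.exists_smul_eq G W P
  have hQP : ∀ q ∈ (Q : Subgroup E), a * (q : G) * a⁻¹ ∈ (P : Subgroup G) := fun q hq => by
    rw [← ha]
    exact ⟨(q : G), hW ⟨q, hq, rfl⟩, rfl⟩
  have hCN : ∀ c ∈ C, (c : G) ∈ N := by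
    intro c hc
    rw [← QuotientGroup.eq_one_iff, ← orderOf_eq_one_iff]
    refine Nat.eq_one_of_dvd_coprimes (hCcop.pow_right k) ?_ ?_
    · refine (orderOf_map_dvd (QuotientGroup.mk' N) (c : G)).trans ?_
      rw [Subgroup.orderOf_coe, ← Subgroup.orderOf_mk c hc]
      exact orderOf_dvd_natCard _
    · rw [← hk, Subgroup.index_eq_card]
      exact orderOf_dvd_natCard _
  have hdisj : ∀ c ∈ C, c ∈ (Q : Subgroup E) → c = 1 := by
    intro c hc hc'
    obtain ⟨i, hi⟩ := Q.isPGroup'.exists_card_eq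
    refine orderOf_eq_one_iff.mp (Nat.eq_one_of_dvd_coprimes (hCcop.pow_right i) ?_ ?_)
    · rw [← Subgroup.orderOf_mk c hc]; exact orderOf_dvd_natCard _
    · rw [← hi, ← Subgroup.orderOf_mk c hc']; exact orderOf_dvd_natCard _
  have hCQ : C ⊔ (Q : Subgroup E) = ⊤ := Subgroup.index_eq_one.mp
    (Nat.eq_one_of_dvd_coprimes (((hp.coprime_iff_not_dvd).mpr Q.not_dvd_index).pow_left j)
      (hCi ▸ Subgroup.index_dvd_of_le le_sup_left) (Subgroup.index_dvd_of_le le_sup_right))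
  haveI := CfsgLib.Brauer.normal_of_le_center hCc
  let mulHom : C × (Q : Subgroup E) →* E :=
    MonoidHom.noncommCoprod C.subtype (Q : Subgroup E).subtype
      fun c q => (Subgroup.mem_center_iff.mp (hCc c.2) q).symm
  have hbij : Function.Bijective mulHom := by
    refine ⟨(injective_iff_map_eq_one mulHom).mpr fun ⟨c, q⟩ h => ?_, fun y => ?_⟩
    · have h' : (c : E) * q = 1 := h
      have hc : (c : E) = 1 := hdisj _ c.2 (by
        rw [eq_inv_of_mul_eq_one_left h']; exact Subgroup.inv_mem _ q.2)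
      rw [hc, one_mul] at h'
      exact Prod.ext (Subtype.ext hc) (Subtype.ext h')
    · obtain ⟨c, hc, q, hq, rfl⟩ := Subgroup.mem_sup_of_normal_left.mp
        (show y ∈ C ⊔ (Q : Subgroup E) by rw [hCQ]; trivial)
      exact ⟨(⟨c, hc⟩, ⟨q, hq⟩), rfl⟩
  let eqv : C × (Q : Subgroup E) ≃* E := MulEquiv.ofBijective mulHom hbij
  have hsplit : ∀ y : ↥(E ⊓ N), ∀ c : C, ∀ q : (Q : Subgroup E),
      ((c : E) : G) * ((q : E) : G) = y → ((q : E) : G) ∈ N := fun y c q h => by
    have : ((q : E) : G) = ((c : E) : G)⁻¹ * y := by rw [← h, inv_mul_cancel_left]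
    rw [this]
    exact N.mul_mem (N.inv_mem (hCN _ c.2)) y.2.2
  have hQcomm : ∀ q q' : (Q : Subgroup E), ((q : E) : G) ∈ N → q * q' = q' * q := fun q q' hq => by
    refine Subtype.ext (Subtype.ext ?_)
    have h := hcent _ ⟨hQP q q.2, (inferInstance : N.Normal).conj_mem _ hq a⟩ _ (hQP q' q'.2)
    exact (MulAut.conj a).injective (by simpa using h)
  have hab : ∀ y y' : ↥(E ⊓ N), y * y' = y' * y := by
    intro y y'
    obtain ⟨⟨c, q⟩, hy⟩ := hbij.2 ⟨y, y.2.1⟩
    obtain ⟨⟨c', q'⟩, hy'⟩ := hbij.2 ⟨y', y'.2.1⟩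
    have hq : ((q : E) : G) ∈ N := hsplit y c q (congrArg Subtype.val hy)
    refine Subtype.ext ?_
    have h : mulHom ((c, q) * (c', q')) = mulHom ((c', q') * (c, q)) := by
      rw [Prod.mk_mul_mk, Prod.mk_mul_mk, hQcomm q q' hq,
        show c * c' = c' * c from Subtype.ext (Subgroup.mem_center_iff.mp (hCc c'.2) c)]
    rw [map_mul, map_mul, hy, hy'] at h
    exact congrArg (fun t : E => (t : G)) h
  obtain ⟨lam, hlam⟩ := exists_hom_of_degree_one φ.2 (apply_one_eq_one_of_comm hab φ.2)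
  -- extend along `Q ⊓ N ≤ P ⊓ N ≤ P`
  let R : Subgroup ↥((P : Subgroup G) ⊓ N) :=
    ((((Q : Subgroup E).map E.subtype) ⊓ N).map (MulAut.conj a).toMonoidHom).subgroupOf _
  have hRdef : ∀ r : R, a⁻¹ * ((r : ↥((P : Subgroup G) ⊓ N)) : G) * a ∈ E ⊓ N ∧
      a⁻¹ * ((r : ↥((P : Subgroup G) ⊓ N)) : G) * a ∈ (Q : Subgroup E).map E.subtype := by
    intro r
    obtain ⟨w, hw, hwr⟩ := r.2
    have e : a⁻¹ * ((r : ↥((P : Subgroup G) ⊓ N)) : G) * a = w := by
      have hwr' : a * w * a⁻¹ = ((r : ↥((P : Subgroup G) ⊓ N)) : G) := hwr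
      rw [← hwr']; group
    rw [e]
    obtain ⟨q, _, hq⟩ := hw.1
    exact ⟨⟨hq ▸ q.2, hw.2⟩, hw.1⟩
  let toD : R →* ↥(E ⊓ N) := MonoidHom.mk' (fun r => ⟨_, (hRdef r).1⟩) fun r r' => Subtype.ext (by
    simp only [Subgroup.coe_mul]; group)
  have hPNab : ∀ x y : ↥((P : Subgroup G) ⊓ N), x * y = y * x := fun x y =>
    Subtype.ext (hcent x x.2 y y.2.1)
  obtain ⟨lam', hlam'⟩ := exists_hom_extension hPNab R (lam.comp toD)
  obtain ⟨μ, hμ⟩ := hlin lam'
  let toP : (Q : Subgroup E) →* ↥(P : Subgroup G) :=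
    MonoidHom.mk' (fun q => ⟨_, hQP q q.2⟩) fun q q' => Subtype.ext (by
      simp only [Subgroup.coe_mul]; group)
  let onC : C →* ↥(E ⊓ N) :=
    MonoidHom.mk' (fun c => ⟨((c : E) : G), (c : E).2, hCN _ c.2⟩) fun _ _ => rfl
  let ν : E →* ℂˣ := ((lam.comp onC).coprod (μ.comp toP)).comp eqv.symm.toMonoidHom
  have hν : ∀ y : ↥(E ⊓ N), ν ⟨y, y.2.1⟩ = lam y := by
    intro y
    obtain ⟨⟨c, q⟩, hy⟩ := hbij.2 ⟨y, y.2.1⟩
    have hq : ((q : E) : G) ∈ N := hsplit y c q (congrArg Subtype.val hy)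
    have hsymm : eqv.symm ⟨y, y.2.1⟩ = (c, q) := by
      rw [MulEquiv.symm_apply_eq]; exact hy.symm
    show ((lam.comp onC).coprod (μ.comp toP)) (eqv.symm ⟨y, y.2.1⟩) = _
    rw [hsymm]
    show lam (onC c) * μ (toP q) = lam y
    set r : ↥((P : Subgroup G) ⊓ N) :=
      ⟨a * ((q : E) : G) * a⁻¹, hQP q q.2, (inferInstance : N.Normal).conj_mem _ hq a⟩
    have hr : r ∈ R := ⟨((q : E) : G), ⟨⟨q, q.2, rfl⟩, hq⟩, rfl⟩
    rw [show μ (toP q) = lam' r from hμ r, show lam' r = _ from hlam' ⟨r, hr⟩, MonoidHom.comp_apply,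
      ← map_mul]
    congr 1
    refine Subtype.ext ?_
    show ((c : E) : G) * (a⁻¹ * (a * ((q : E) : G) * a⁻¹) * a) = y
    rw [show a⁻¹ * (a * ((q : E) : G) * a⁻¹) * a = ((q : E) : G) by group]
    exact congrArg Subtype.val hy
  obtain ⟨_, τ, -, hτ⟩ := isIrrCharacter_linear ν
  obtain ⟨d, ρ, hρ, rfl⟩ := hϑ
  haveI := hρ
  obtain ⟨σ, hσ⟩ := exists_extension_of_mult_not_dvd N ρ
    (fun g n => congrFun (hinv g) n) hp hk E htop τ (by
    intro hd
    refine hpm ?_
    have h := classInner_character_eq_finrank (τ.comp (Subgroup.inclusion (inf_le_left : E ⊓ N ≤ E)))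
      (ρ.comp (Subgroup.inclusion (inf_le_right : E ⊓ N ≤ N)))
    have e : Representation.character (τ.comp (Subgroup.inclusion (inf_le_left : E ⊓ N ≤ E)))
        = (φ : ↥(E ⊓ N) → ℂ) := funext fun y => by
      show τ.character (Subgroup.inclusion (inf_le_left : E ⊓ N ≤ E) y) = _
      rw [hτ, hlam]
      exact congrArg Units.val (hν y)
    rw [e] at h
    have h' : (m : ℂ) = _ := hmφ.symm.trans h
    rwa [Nat.cast_injective h'])
  exact ⟨_, isIrrCharacter_of_extension ρ σ hσ⟩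

end CfsgLib.RealChar
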