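import Cfsg.Agent.Lib.RealChar.HomRep
import Cfsg.Agent.Lib.RealChar.CharSandwich

/-!
# A finite cover on which an invariant character extends
-/

set_option autoImplicit false
set_option linter.style.haveILetI false
set_option linter.unusedSectionVars false

open Cfsg CfsgLib.CharTheory

namespace CfsgLib.RealChar

universe u

/-- A finite central cover of `G` splitting over `M` on which the invariant `ξ` extends. -/
structure FactorCover {G : Type u} [Group G] (M : Subgroup G) (ξ : M → ℂ) where
  E : Type u
  [grp : Group E]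
  [fin : Fintype E]
  π : E →* G
  ι : M →* E
  X : E → ℂ
  surj : Function.Surjective π
  section_apply : ∀ m, π (ι m) = m
  range_normal : ι.range.Normal
  irr : IsIrrCharacter E X
  ext_apply : ∀ m, X (ι m) = ξ m
  ker_central : π.ker ≤ Subgroup.center E

attribute [instance] FactorCover.grp FactorCover.fin

variable {G : Type u} [Group G]

theorem nonempty_factorCover [Finite G] (M : Subgroup G) [M.Normal] {ξ : M → ℂ}
    (hξ : IsIrrCharacter M ξ) (hinv : ∀ (g : G) (n : M), ξ (MulAut.conjNormal g n) = ξ n) :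
    Nonempty (FactorCover M ξ) := by
  classical
  obtain ⟨d, ρ, hρ, rfl⟩ := hξ
  haveI := hρ
  haveI := Fintype.ofFinite M
  set δ : interGroup M ρ →* ℂˣ :=
    (powMonoidHom (Nat.card M)).comp
      ((Units.map (LinearMap.det : Module.End ℂ (Fin d → ℂ) →* ℂ)).comp (interSnd M ρ)) with hδ
  have hdet : ∀ x : interGroup M ρ, (δ x : ℂ) =
      LinearMap.det ((interSnd M ρ x : (Module.End ℂ (Fin d → ℂ))ˣ) : Module.End ℂ (Fin d → ℂ))
        ^ Nat.card M := fun x => by
    rw [hδ]; simp
  have hd : 0 < d := degree_pos M ρ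
  have hincl : ∀ m : M, interIncl M ρ m ∈ δ.ker := fun m => by
    rw [MonoidHom.mem_ker, Units.ext_iff, hdet]
    show LinearMap.det (ρ m) ^ Nat.card M = 1
    rw [← map_pow, ← map_pow, pow_card_eq_one', map_one, map_one]
  have hone : interGroupOne ρ ≤ δ.ker := fun x hx => by
    rw [MonoidHom.mem_ker, Units.ext_iff, hdet, mem_interGroupOne.1 hx, one_pow, Units.val_one]
  choose s hs hsg using interGroupOne_surjective hinv
  have hsc : ∀ x : δ.ker, ∃ z : ℂˣ,
      (x : interGroup M ρ) = interScalar M ρ z * s (interFst M ρ x) :=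
    fun x => exists_scalar_of_interFst_eq _ _ (hsg _).symm
  choose z hz using hsc
  have hzd : ∀ x, z x ∈ rootsOfUnity (d * Nat.card M) ℂ := fun x => by
    have h : (δ x : ℂ) = 1 := by rw [show δ x = 1 from x.2, Units.val_one]
    rw [hdet, hz x, map_mul, Units.val_mul, map_mul, det_interScalar, mem_interGroupOne.1 (hs _),
      mul_one, ← pow_mul] at h
    exact Units.ext (by simpa using h)
  haveI : NeZero (d * Nat.card M) := ⟨(Nat.mul_pos hd Nat.card_pos).ne'⟩
  haveI : Finite δ.ker := by
    refine Finite.of_injective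
      (fun x : δ.ker => (interFst M ρ (x : interGroup M ρ),
        (⟨z x, hzd x⟩ : rootsOfUnity (d * Nat.card M) ℂ))) fun x y hxy => ?_
    simp only [Prod.mk.injEq, Subtype.mk.injEq] at hxy
    exact Subtype.ext (by rw [hz x, hz y, hxy.1, hxy.2])
  haveI := Fintype.ofFinite δ.ker
  let σ : Representation ℂ δ.ker (Fin d → ℂ) :=
    (Units.coeHom _).comp ((interSnd M ρ).comp δ.ker.subtype)
  let ι : M →* δ.ker := (interIncl M ρ).codRestrict _ hincl
  refine ⟨{ E := δ.ker, π := (interFst M ρ).comp δ.ker.subtype, ι := ι, X := σ.character,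
            surj := fun g => ⟨⟨s g, hone (hs g)⟩, hsg g⟩, section_apply := fun m => rfl,
            range_normal := ⟨?_⟩,
            irr := isIrrCharacter_of_comp ι ⟨d, σ, rfl⟩ ⟨d, ρ, hρ, rfl⟩,
            ext_apply := fun m => rfl, ker_central := fun e he => ?_ }⟩
  · rintro _ ⟨m, rfl⟩ e
    exact ⟨MulAut.conjNormal (interFst M ρ (e : interGroup M ρ)) m,
      Subtype.ext (interIncl_conj M ρ (e : interGroup M ρ) m).symm⟩
  · have he' : interFst M ρ (e : interGroup M ρ) = interFst M ρ 1 := by
      rw [map_one]; exact he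
    obtain ⟨w, hw⟩ := exists_scalar_of_interFst_eq _ _ he'
    rw [mul_one] at hw
    exact Subgroup.mem_center_iff.2 fun e' => Subtype.ext (by
      show (e' : interGroup M ρ) * e = e * e'
      rw [hw]
      exact (interScalar_commute M ρ w _).symm.eq)

end CfsgLib.RealChar
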