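import Mathlib
import Cfsg.Prelude.Def_Characters
import Cfsg.Agent.Lib.CharTheory.Monomial
import Cfsg.Agent.Lib.CharTheory.Ito
import Cfsg.Agent.Lib.CharTheory.Inflation
import Cfsg.Agent.Lib.Coherence.Constituent
import Cfsg.Agent.Lib.CharDegreesTheory.Galois
import Cfsg.Agent.Lib.Brauer.IndCalc
import Cfsg.Agent.Lib.Brauer.CharRing
import Cfsg.Agent.Lib.Clifford.Basic
import Cfsg.Agent.Lib.RealChar.DegreeRatio
import Cfsg.Agent.Lib.Blocks.CentralDefect

/-!
# Galois orbits of irreducible characters of `p`-groups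

If a nontrivial `p`-group of order `p ^ a` has a faithful irreducible character of degree `f`
whose Galois orbit has `m` members, then `m = (p - 1) * p ^ t` and
`(p - 1) * a + 1 ≤ f * (1 + (p - 1) * (t + 1))`.  This yields Schur's bound for the order of a
`p`-group with a faithful rational character.
-/

set_option autoImplicit false
set_option linter.unusedSectionVars false
set_option linter.style.haveILetI false

open Cfsg CfsgLib.CharTheory

namespace CfsgLib.RealChar.PGalois

universe u

variable {P : Type u} [Group P] {N : ℕ} [NeZero N]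

theorem pow_val_mul (hN : ∀ g : P, g ^ N = 1) (g : P) (x y : (ZMod N)ˣ) :
    g ^ ((x * y : (ZMod N)ˣ) : ZMod N).val = (g ^ (x : ZMod N).val) ^ (y : ZMod N).val := by
  rw [Units.val_mul, ZMod.val_mul, ← pow_mul]
  exact (pow_eq_pow_mod _ (hN g)).symm

theorem pow_val_one (hN : ∀ g : P, g ^ N = 1) (g : P) :
    g ^ ((1 : (ZMod N)ˣ) : ZMod N).val = g := by
  rcases Nat.lt_or_ge 1 N with h | h
  · haveI : Fact (1 < N) := ⟨h⟩
    rw [Units.val_one, ZMod.val_one, pow_one]
  · have h1 : N = 1 := le_antisymm h (Nat.one_le_iff_ne_zero.2 (NeZero.ne N))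
    have hg := hN g
    rw [h1, pow_one] at hg
    rw [hg, one_pow]

theorem pow_val_inv (hN : ∀ g : P, g ^ N = 1) (g : P) (x : (ZMod N)ˣ) :
    (g ^ (x : ZMod N).val) ^ ((x⁻¹ : (ZMod N)ˣ) : ZMod N).val = g := by
  rw [← pow_val_mul hN, mul_inv_cancel, pow_val_one hN]

/-- The exponents fixing a function. -/
def stab (hN : ∀ g : P, g ^ N = 1) (χ : P → ℂ) : Subgroup (ZMod N)ˣ where
  carrier := {x | ∀ g : P, χ (g ^ (x : ZMod N).val) = χ g}
  one_mem' := fun g => by rw [pow_val_one hN]
  mul_mem' := fun {x y} hx hy g => by rw [pow_val_mul hN, hy, hx]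
  inv_mem' := fun {x} hx g => by
    have h := hx (g ^ ((x⁻¹ : (ZMod N)ˣ) : ZMod N).val)
    rw [← pow_val_mul hN, inv_mul_cancel, pow_val_one hN] at h
    exact h.symm

theorem mem_stab {hN : ∀ g : P, g ^ N = 1} {χ : P → ℂ} {x : (ZMod N)ˣ} :
    x ∈ stab hN χ ↔ ∀ g : P, χ (g ^ (x : ZMod N).val) = χ g := Iff.rfl

theorem eq_of_mem_stab {hN : ∀ g : P, g ^ N = 1} {χ : P → ℂ} {x y : (ZMod N)ˣ} :
    x⁻¹ * y ∈ stab hN χ ↔
      (fun g => χ (g ^ (x : ZMod N).val)) = fun g => χ (g ^ (y : ZMod N).val) := by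
  constructor
  · intro h
    funext g
    have h1 := h (g ^ (x : ZMod N).val)
    rw [← pow_val_mul hN, mul_inv_cancel_left] at h1
    exact h1.symm
  · intro h g
    have h1 := congrFun h (g ^ ((x⁻¹ : (ZMod N)ˣ) : ZMod N).val)
    simp only [← pow_val_mul hN, inv_mul_cancel, pow_val_one hN] at h1
    exact h1.symm

/-- The size of the orbit is the index of the stabiliser. -/
theorem card_orbit (hN : ∀ g : P, g ^ N = 1) (χ : P → ℂ) :
    Nat.card (Set.range fun x : (ZMod N)ˣ => fun g => χ (g ^ (x : ZMod N).val))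
      = (stab hN χ).index := by
  rw [Subgroup.index]
  symm
  refine Nat.card_congr (Equiv.ofBijective (Quotient.lift
    (fun x : (ZMod N)ˣ => (⟨fun g => χ (g ^ (x : ZMod N).val), ⟨x, rfl⟩⟩ :
      Set.range fun x : (ZMod N)ˣ => fun g => χ (g ^ (x : ZMod N).val)))
    fun x y h => Subtype.ext (eq_of_mem_stab.1 (QuotientGroup.leftRel_apply.1 h))) ⟨?_, ?_⟩)
  · intro a b h
    induction a using Quotient.inductionOn with
    | h x =>
      induction b using Quotient.inductionOn with
      | h y =>
        exact Quotient.sound (QuotientGroup.leftRel_apply.2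
          (eq_of_mem_stab.2 (congrArg Subtype.val h)))
  · rintro ⟨_, x, rfl⟩
    exact ⟨Quotient.mk _ x, rfl⟩

variable {p : ℕ}

/-- An exponent of a power of `p` modulus is prime to `p`. -/
theorem coprime_val (hNp : ∃ A, N = p ^ A) (hN1 : p ∣ N) (x : (ZMod N)ˣ) :
    Nat.Coprime ((x : ZMod N).val) p := by
  have h := ZMod.val_coe_unit_coprime x
  exact Nat.Coprime.coprime_dvd_right hN1 h

/-- Galois conjugates of irreducible characters. -/
theorem isIrr_powTwist [Fintype P] (hN : ∀ g : P, g ^ N = 1) {χ : P → ℂ}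
    (hχ : IsIrrCharacter P χ) (x : (ZMod N)ˣ) :
    IsIrrCharacter P (fun g => χ (g ^ (x : ZMod N).val)) := by
  obtain ⟨σ, hσ⟩ := CharDegreesTheory.exists_ringAut_complex N _ (ZMod.val_coe_unit_coprime x)
  have h : (fun g => χ (g ^ (x : ZMod N).val)) = fun g => σ (χ g) := funext fun g =>
    (CharDegreesTheory.ringAut_apply_character σ hσ (IsIrrCharacter.isCharacter hχ)
      (orderOf_dvd_of_pow_eq_one (hN g))).symm
  rw [h]
  exact CharDegreesTheory.isIrrCharacter_ringAut σ hχ

theorem geom_id (hp : 1 ≤ p) (j : ℕ) : (p - 1) * (∑ i ∈ Finset.range j, p ^ i) + 1 = p ^ j := by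
  obtain ⟨q, rfl⟩ := Nat.exists_eq_add_of_le' hp
  induction j with
  | zero => simp
  | succ j ih =>
    rw [Finset.sum_range_succ, pow_succ]
    simp only [Nat.add_sub_cancel] at ih ⊢
    nlinarith [ih]

variable [hp : Fact p.Prime]

/-- The index of the stabiliser of a faithful irreducible character. -/
theorem exists_index_eq [Fintype P] (hP : IsPGroup p P) [Nontrivial P] {A : ℕ}
    (hNA : N = p ^ (A + 1)) (hN : ∀ g : P, g ^ N = 1) {χ : P → ℂ} (hχ : IsIrrCharacter P χ)
    (hfaith : ∀ g, χ g = χ 1 → g = 1) :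
    ∃ t, (stab hN χ).index = (p - 1) * p ^ t := by
  classical
  have hpN : p ∣ N := hNA ▸ dvd_pow_self p (Nat.succ_ne_zero A)
  obtain ⟨z, hz, hzo⟩ : ∃ z ∈ Subgroup.center P, orderOf z = p := by
    haveI := hP.center_nontrivial
    obtain ⟨k, hk, hcard⟩ := (hP.to_subgroup (Subgroup.center P)).nontrivial_iff_card.1 inferInstance
    obtain ⟨z, hz⟩ := exists_prime_orderOf_dvd_card' p
      (hcard ▸ dvd_pow_self p hk.ne' : p ∣ Nat.card (Subgroup.center P))
    exact ⟨z, z.2, by rw [Subgroup.orderOf_coe]; exact hz⟩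
  have hd := apply_one_ne_zero_of_isIrr hχ
  set lam := χ z / χ 1 with hlam
  have hpow : ∀ k : ℕ, χ (z ^ k) = χ 1 * lam ^ k := by
    intro k
    induction k with
    | zero => simp
    | succ k ih =>
      have h := Blocks.irr_mul_mem_center (⟨χ, hχ⟩ : IrrCharacter P) hz (z ^ k)
      have h' : χ (z * z ^ k) = χ z * χ (z ^ k) / χ 1 := (eq_div_iff hd).2 h
      rw [pow_succ', pow_succ' lam, h', ih, hlam]
      field_simp
  have hprim : IsPrimitiveRoot lam p := by
    refine IsPrimitiveRoot.iff_def _ _ |>.2 ⟨?_, fun l hl => ?_⟩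
    · have h := hpow p
      rw [← hzo, pow_orderOf_eq_one, hzo] at h
      exact mul_left_cancel₀ hd (by rw [← h, mul_one])
    · have h := hpow l
      rw [hl, mul_one] at h
      exact hzo ▸ orderOf_dvd_of_pow_eq_one (hfaith _ h)
  have hle : stab hN χ ≤ (ZMod.unitsMap hpN).ker := by
    intro x hx
    have h := hx z
    have h1 : χ z = χ 1 * lam ^ 1 := by rw [← hpow, pow_one]
    rw [hpow, h1] at h
    have h2 := mul_left_cancel₀ hd h
    rw [pow_one] at h2
    have h3 : ((x : ZMod N).val : ℕ) ≡ 1 [MOD p] := by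
      refine (Nat.modEq_iff_dvd' ?_).2 ?_ |>.symm
      · exact Nat.one_le_iff_ne_zero.2 fun h0 => by
          have := coprime_val ⟨_, hNA⟩ hpN x
          rw [h0, Nat.coprime_zero_left] at this
          exact hp.out.ne_one this
      · refine hprim.dvd_of_pow_eq_one _ ?_
        have hne : lam ≠ 0 := hprim.ne_zero hp.out.ne_zero
        have hv : 1 ≤ (x : ZMod N).val := Nat.one_le_iff_ne_zero.2 fun h0 => by
          have := coprime_val ⟨_, hNA⟩ hpN x
          rw [h0, Nat.coprime_zero_left] at this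
          exact hp.out.ne_one this
        rw [← mul_left_inj' hne, ← pow_succ, Nat.sub_add_cancel hv, h2, one_mul]
    rw [MonoidHom.mem_ker]
    apply Units.ext
    rw [ZMod.unitsMap_def, Units.coe_map, Units.val_one]
    show ZMod.castHom hpN (ZMod p) (x : ZMod N) = 1
    rw [ZMod.castHom_apply, ZMod.cast_eq_val, ← Nat.cast_one, ZMod.natCast_eq_natCast_iff]
    exact h3
  have hker : (ZMod.unitsMap hpN).ker.index = p - 1 := by
    rw [Subgroup.index_ker, MonoidHom.range_eq_top.2 (ZMod.unitsMap_surjective hpN),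
      Subgroup.card_top, Nat.card_eq_fintype_card, ZMod.card_units_eq_totient,
      Nat.totient_prime hp.out]
  obtain ⟨s, hs⟩ := Subgroup.index_dvd_of_le hle
  rw [hker] at hs
  have hsd : (stab hN χ).index ∣ Nat.totient N := by
    rw [← ZMod.card_units_eq_totient, ← Nat.card_eq_fintype_card]
    exact Subgroup.index_dvd_card _
  rw [hs, hNA, Nat.totient_prime_pow_succ hp.out, mul_comm (p ^ A),
    Nat.mul_dvd_mul_iff_left (Nat.sub_pos_of_lt hp.out.one_lt)] at hsd
  obtain ⟨t, -, rfl⟩ := (Nat.dvd_prime_pow hp.out).1 hsd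
  exact ⟨t, hs⟩

/-- The bound for a faithful irreducible character. -/
theorem exists_bound {A : ℕ} (hNA : N = p ^ (A + 1)) :
    ∀ (a : ℕ) (P : Type u) [Group P] [Fintype P] (hN : ∀ g : P, g ^ N = 1),
      Nat.card P = p ^ a → 0 < a → ∀ χ : P → ℂ, IsIrrCharacter P χ →
      (∀ g, χ g = χ 1 → g = 1) →
      ∃ t f : ℕ, χ 1 = (f : ℂ) ∧ (stab hN χ).index = (p - 1) * p ^ t ∧
        (p - 1) * a + 1 ≤ f * (1 + (p - 1) * (t + 1)) := by
  intro a
  induction a using Nat.strong_induction_on with
  | _ a ih =>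
  intro P _ _ hN hcard ha χ hχ hfaith
  classical
  have hpp := hp.out
  have hP : IsPGroup p P := IsPGroup.of_card hcard
  haveI : Nontrivial P := Finite.one_lt_card_iff_nontrivial.1 (by
    rw [hcard]; exact Nat.one_lt_pow ha.ne' hpp.one_lt)
  obtain ⟨t, ht⟩ := exists_index_eq hP hNA hN hχ hfaith
  obtain ⟨f, hf0, hf⟩ := exists_degree_of_isIrr hχ
  refine ⟨t, f, hf, ht, ?_⟩
  by_cases hf1 : f = 1
  · -- a cyclic group
    subst hf1
    obtain ⟨l, hl⟩ := exists_hom_of_degree_one hχ (by rw [hf, Nat.cast_one])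
    have hlv : ∀ g, χ g = (l g : ℂ) := fun g => congrFun hl g
    have hinj : Function.Injective l := (injective_iff_map_eq_one l).2 fun g hg =>
      hfaith g (by rw [hlv, hlv, hg, map_one])
    haveI : IsCyclic P := isCyclic_of_subgroup_isDomain ((Units.coeHom ℂ).comp l)
      (fun g h e => hinj (Units.ext e))
    obtain ⟨g, hg⟩ := IsCyclic.exists_ofOrder_eq_natCard (α := P)
    have hdvd : p ^ a ∣ N := by
      rw [← hcard, ← hg]; exact orderOf_dvd_of_pow_eq_one (hN g)
    have hprim : IsPrimitiveRoot ((l g : ℂ)) (p ^ a) := by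
      rw [← hcard, ← hg, ← orderOf_injective ((Units.coeHom ℂ).comp l)
        (fun g h e => hinj (Units.ext e)) g]
      exact IsPrimitiveRoot.orderOf _
    have hgen : ∀ y : P, y ∈ Subgroup.zpowers g := fun y => by
      have : Subgroup.zpowers g = ⊤ :=
        Subgroup.eq_top_of_card_eq _ (by rw [Nat.card_zpowers, hg])
      rw [this]; trivial
    have hker : stab hN χ = (ZMod.unitsMap hdvd).ker := by
      ext x
      rw [MonoidHom.mem_ker, mem_stab]
      have hiff : ((x : ZMod N).val : ℕ) ≡ 1 [MOD p ^ a] ↔ ZMod.unitsMap hdvd x = 1 := by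
        rw [Units.ext_iff, ZMod.unitsMap_def, Units.coe_map, Units.val_one,
          ← ZMod.natCast_eq_natCast_iff, Nat.cast_one]
        show _ ↔ ZMod.castHom hdvd (ZMod (p ^ a)) (x : ZMod N) = 1
        rw [ZMod.castHom_apply, ZMod.cast_eq_val]
      rw [← hiff]
      constructor
      · intro h
        have h1 := h g
        rw [hlv, hlv, map_pow, Units.val_pow_eq_pow_val] at h1
        rw [← hcard, ← hg, ← pow_eq_pow_iff_modEq, pow_one]
        exact hinj (Units.ext (by rw [map_pow, Units.val_pow_eq_pow_val]; exact h1))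
      · intro h y
        obtain ⟨k, rfl⟩ := hgen y
        rw [← hcard, ← hg, ← pow_eq_pow_iff_modEq, pow_one] at h
        show χ ((g ^ k) ^ (x : ZMod N).val) = χ (g ^ k)
        rw [← zpow_natCast, ← zpow_mul, mul_comm, zpow_mul, zpow_natCast, h]
    rw [hker, Subgroup.index_ker, MonoidHom.range_eq_top.2 (ZMod.unitsMap_surjective hdvd),
      Subgroup.card_top, Nat.card_eq_fintype_card, ZMod.card_units_eq_totient,
      Nat.totient_prime_pow hpp ha, mul_comm] at ht
    have hta : a - 1 = t := Nat.pow_right_injective hpp.two_le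
      (Nat.eq_of_mul_eq_mul_left (Nat.sub_pos_of_lt hpp.one_lt) ht)
    rw [one_mul, show t + 1 = a by omega]
    omega
  -- a maximal subgroup carrying the character
  haveI : Group.IsNilpotent P := hP.isNilpotent
  obtain ⟨H₀, l, hl⟩ := exists_ind_of_nilpotent hχ
  have hH₀ : H₀ ≠ ⊤ := by
    rintro rfl
    apply hf1
    have h := congrFun hl 1
    rw [CfsgLib.Frobenius.indFun_one, Subgroup.index_top, hf, map_one] at h
    simp only [Units.val_one, Nat.cast_one, one_mul] at h
    exact_mod_cast h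
  obtain ⟨H, hH, hle⟩ := (eq_top_or_exists_le_coatom H₀).resolve_left hH₀
  obtain ⟨j, hj⟩ := IsPGroup.iff_card.1 (hP.to_subgroup H)
  have hja : j + 1 = a := by
    have hjlt : j < a := by
      have h1 : Nat.card H < Nat.card P := by
        by_contra hge
        exact hH.1 (Subgroup.eq_top_of_le_card H (Nat.not_lt.1 hge))
      rw [hj, hcard] at h1
      exact (Nat.pow_lt_pow_iff_right hpp.one_lt).1 h1
    by_contra hne
    obtain ⟨K, hKc, hHK⟩ := Sylow.exists_subgroup_card_pow_succ (p := p) (n := j)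
      (hcard ▸ pow_dvd_pow p hjlt) hj
    have hlt : H < K := lt_of_le_of_ne hHK fun e => by
      rw [← e, hj] at hKc
      have := Nat.pow_right_injective hpp.two_le hKc
      omega
    have := hH.2 K hlt
    rw [this, Subgroup.card_top, hcard] at hKc
    have := Nat.pow_right_injective hpp.two_le hKc
    omega
  have hidx : H.index = p := by
    have h := Subgroup.card_mul_index H
    rw [hj, hcard, ← hja, pow_succ] at h
    exact Nat.eq_of_mul_eq_mul_left (pow_pos hpp.pos j) h
  haveI hHn : H.Normal := Subgroup.normal_of_index_eq_minFac_card (by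
    rw [hidx, hcard, Nat.pow_minFac ha.ne', hpp.minFac_eq])
  haveI := Fintype.ofFinite H
  haveI := Fintype.ofFinite H₀
  haveI := Fintype.ofFinite (H₀.subgroupOf H)
  let θ₀ : H → ℂ := indFun (H₀.subgroupOf H)
    (fun k => (l ⟨((k : H) : P), Subgroup.mem_subgroupOf.1 k.2⟩ : ℂ))
  have hθ₀ : IsCharacter H θ₀ := CfsgLib.Frobenius.isCharacter_indFun _ _
    (IsIrrCharacter.isCharacter (isIrrCharacter_linear
      (l.comp (Subgroup.subgroupOfEquivOfLe hle).toMonoidHom)))
  have hind₀ : indFun H θ₀ = χ := by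
    rw [hl]; exact CfsgLib.Brauer.indFun_indFun_subgroupOf hle (fun h => (l h : ℂ))
  -- an irreducible constituent inducing to `χ`
  obtain ⟨θ, hθ, hθc⟩ : ∃ θ : H → ℂ, IsIrrCharacter H θ ∧ classInner θ₀ θ ≠ 0 := by
    refine Coherence.exists_constituent hθ₀ fun h0 => apply_one_ne_zero_of_isIrr hχ ?_
    rw [← hind₀, CfsgLib.Frobenius.indFun_one, h0, mul_zero]
  have hχH : classInner (fun h : H => χ h) θ₀ ≠ 0 := by
    have h := CfsgLib.Frobenius.classInner_indFun H θ₀ χ (IsIrrCharacter.isClassFunction hχ)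
    rw [hind₀, classInner_self_of_isIrr hχ] at h
    rw [classInner_conj_symm, ← h, map_one]
    exact one_ne_zero
  obtain ⟨θ, hθ, hθχ, hθ₀'⟩ : ∃ θ : H → ℂ, IsIrrCharacter H θ ∧
      classInner (fun h : H => χ h) θ ≠ 0 ∧ classInner θ₀ θ ≠ 0 := by
    haveI := Fintype.ofFinite (IrrCharacter H)
    obtain ⟨m, hm⟩ := IsCharacter.exists_sum hθ₀
    by_contra hall
    push Not at hall
    refine hχH ?_
    rw [hm, classInner_conj_symm, classInner_sum_left, map_sum]
    refine Finset.sum_eq_zero fun φ _ => ?_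
    rw [classInner_smul_left, map_mul, ← classInner_conj_symm]
    by_cases h0 : classInner (fun h : H => χ h) (φ : H → ℂ) = 0
    · rw [h0, mul_zero]
    · have h1 := hall φ φ.2 h0
      rw [hm, classInner_sum_irr] at h1
      rw [h1, map_zero, zero_mul]
  clear hθc
  obtain ⟨g, hg0, hg⟩ := exists_degree_of_isIrr hθ
  have hdle : g * p ≤ f := by
    have h1 := Coherence.constituent_degree_le hθ₀ hθ hθ₀'
    have h2 : θ₀ 1 * (p : ℂ) = (f : ℂ) := by
      rw [← hf, ← hind₀, CfsgLib.Frobenius.indFun_one, hidx, mul_comm]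
    obtain ⟨c, hc⟩ := exists_degree_of_isCharacter hθ₀
    rw [hc, hg, Complex.natCast_re, Complex.natCast_re, Nat.cast_le] at h1
    rw [hc, ← Nat.cast_mul, Nat.cast_inj] at h2
    rw [← h2]
    exact Nat.mul_le_mul_right p h1
  have hnz : classInner (indFun H θ) χ ≠ 0 := by
    rw [CfsgLib.Frobenius.classInner_indFun H θ χ (IsIrrCharacter.isClassFunction hχ),
      classInner_conj_symm]
    simpa using hθχ
  have hIθ : IsCharacter P (indFun H θ) :=
    CfsgLib.Frobenius.isCharacter_indFun H θ (IsIrrCharacter.isCharacter hθ)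
  have hfg : f = g * p := by
    refine le_antisymm ?_ hdle
    have h1 := Coherence.constituent_degree_le hIθ hχ hnz
    rw [CfsgLib.Frobenius.indFun_one, hidx, hg, hf, ← Nat.cast_mul, Complex.natCast_re,
      Complex.natCast_re, Nat.cast_le] at h1
    rw [mul_comm]; exact h1
  have hind : indFun H θ = χ := Coherence.constituent_eq_of_degree hIθ hχ hnz (by
    rw [CfsgLib.Frobenius.indFun_one, hidx, hg, hf, hfg, Nat.cast_mul, mul_comm])
  have hNH : ∀ h : H, h ^ N = 1 := fun h => Subtype.ext (by simpa using hN (h : P))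
  -- stabilisers
  have hst : stab hNH θ ≤ stab hN χ := by
    intro x hx y
    rw [← hind]
    simp only [indFun]
    congr 1
    refine Finset.sum_congr rfl fun w _ => ?_
    rw [show w⁻¹ * y ^ (x : ZMod N).val * w = (w⁻¹ * y * w) ^ (x : ZMod N).val by
      simpa using (conj_pow (i := (x : ZMod N).val) (a := w⁻¹) (b := y)).symm]
    by_cases hy : w⁻¹ * y * w ∈ H
    · rw [CfsgLib.Frobenius.extendByZero_of_mem H θ hy,
        CfsgLib.Frobenius.extendByZero_of_mem H θ (H.pow_mem hy _)]
      exact hx ⟨_, hy⟩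
    · rw [CfsgLib.Frobenius.extendByZero_of_not_mem H θ hy,
        CfsgLib.Frobenius.extendByZero_of_not_mem H θ fun hm => hy (by
          have := H.pow_mem hm ((x⁻¹ : (ZMod N)ˣ) : ZMod N).val
          rwa [pow_val_inv hN] at this)]
  have hconj : ∀ x ∈ stab hN χ, ∃ c : P,
      (fun h : H => θ (h ^ (x : ZMod N).val)) = Clifford.conjChar H θ c := by
    intro x hx
    refine Clifford.exists_conj_of_constituents H hχ hθ (isIrr_powTwist hNH hθ x) hθχ ?_
    have e : classInner (fun h : H => χ h) (fun h : H => θ (h ^ (x : ZMod N).val)) =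
        classInner (fun h : H => χ h) θ := by
      simp only [classInner]
      congr 1
      refine Fintype.sum_bijective (fun h : H => h ^ (x : ZMod N).val) ?_ _ _ fun h => ?_
      · exact ⟨fun h k hk => by
          rw [← pow_val_inv hNH h x, ← pow_val_inv hNH k x]; exact congrArg (· ^ _) hk,
          fun h => ⟨h ^ ((x⁻¹ : (ZMod N)ˣ) : ZMod N).val, by
            simp only []
            rw [← pow_val_mul hNH, inv_mul_cancel, pow_val_one hNH]⟩⟩
      · rw [SubgroupClass.coe_pow, hx]
    rw [e]; exact hθχ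
  -- the quotient by the kernel of `θ`
  obtain ⟨K, hKn, hK, hKmul⟩ := exists_kernel (IsIrrCharacter.isCharacter hθ)
  haveI := hKn
  haveI := Fintype.ofFinite (H ⧸ K)
  obtain ⟨η, hη, hηeq⟩ := exists_descend hθ K fun h hh => (hK h).1 hh
  have hfaithη : ∀ q, η q = η 1 → q = 1 := by
    intro q hq
    obtain ⟨h, rfl⟩ := QuotientGroup.mk_surjective q
    rw [← QuotientGroup.mk_one, ← hηeq, ← hηeq] at hq
    exact (QuotientGroup.eq_one_iff h).2 ((hK h).2 hq)
  have hres : ∀ h : H, (∀ c : P, θ (MulAut.conjNormal c h) = θ 1) → h = 1 := by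
    intro h hc
    refine Subtype.ext (hfaith _ ?_)
    rw [← hind, RealChar.indFun_apply_normal H θ h, CfsgLib.Frobenius.indFun_one]
    simp only [RealChar.conjFun]
    rw [
      Finset.sum_congr rfl (g := fun _ => θ 1) (fun c _ => hc c⁻¹), Finset.sum_const, Finset.card_univ, nsmul_eq_mul,
      ← Nat.card_eq_fintype_card, ← Subgroup.card_mul_index H, Nat.cast_mul]
    field_simp
  obtain ⟨b, hb⟩ := IsPGroup.iff_card.1 ((hP.to_subgroup H).to_quotient K)
  have hb0 : 0 < b := by
    by_contra hb0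
    rw [Nat.eq_zero_of_not_pos hb0, pow_zero] at hb
    have h1 : ∀ h : H, θ h = θ 1 := fun h => (hK h).1 ((QuotientGroup.eq_one_iff h).1 (by
      haveI := (Nat.card_eq_one_iff_unique.1 hb).1
      exact Subsingleton.elim _ _))
    have hbot : H = ⊥ := (Subgroup.eq_bot_iff_forall _).2 fun y hy =>
      congrArg Subtype.val (hres ⟨y, hy⟩ fun c => h1 _)
    rw [hbot, Subgroup.index_bot] at hidx
    haveI : IsCyclic P := isCyclic_of_prime_card hidx
    have h2 := hcard.symm.trans hidx
    have hH₀' : H₀.index = f := by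
      have h := congrFun hl 1
      rw [CfsgLib.Frobenius.indFun_one, hf, map_one, Units.val_one, mul_one] at h
      exact_mod_cast h.symm
    have hcom : ∀ x y : P, x * y = y * x := (IsCyclic.commGroup (α := P)).mul_comm
    apply hf1
    have h3 : χ 1 = 1 := apply_one_eq_one_of_comm hcom hχ
    rw [hf] at h3; exact_mod_cast h3
  have hba : b < a := by
    have : b ≤ j := by
      have h1 : Nat.card (H ⧸ K) ∣ Nat.card H :=
        Subgroup.card_quotient_dvd_card K
      rw [hb, hj] at h1
      exact (Nat.pow_dvd_pow_iff_le_right hpp.one_lt).1 h1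
    omega
  have hNK : ∀ q : H ⧸ K, q ^ N = 1 := fun q => by
    obtain ⟨h, rfl⟩ := QuotientGroup.mk_surjective q
    rw [← QuotientGroup.mk_pow, hNH, QuotientGroup.mk_one]
  obtain ⟨t', g', hg', ht', hbound⟩ := ih b hba (H ⧸ K) hNK hb hb0 η hη hfaithη
  have hgg : g' = g := by
    have : η 1 = (g : ℂ) := by rw [← QuotientGroup.mk_one, ← hηeq, hg]
    rw [hg'] at this; exact_mod_cast this
  rw [hgg] at hbound
  have hsteq : stab hNK η = stab hNH θ := by
    ext x
    simp only [mem_stab]
    constructor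
    · intro h y
      rw [hηeq, hηeq, QuotientGroup.mk_pow]; exact h _
    · intro h q
      obtain ⟨y, rfl⟩ := QuotientGroup.mk_surjective q
      rw [← QuotientGroup.mk_pow, ← hηeq, ← hηeq]; exact h y
  rw [hsteq] at ht'
  -- the ratio of the orbit sizes
  set O := Clifford.conjOrbit H θ with hO
  have hOp : O.card ≤ p := by
    rw [hO, Clifford.card_conjOrbit H θ (RealChar.inertia H θ) fun c => by
      rw [Clifford.conjChar_eq_comp]; exact Iff.rfl]
    exact Nat.le_of_dvd hpp.pos (hidx ▸ Subgroup.index_dvd_of_le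
      (RealChar.le_inertia H (IsIrrCharacter.isClassFunction hθ)))
  set S := stab hN χ with hS
  set S' := (stab hNH θ).subgroupOf S with hS'
  let F : S ⧸ S' → O := Quotient.lift
    (fun x : S => (⟨fun h : H => θ (h ^ ((x : (ZMod N)ˣ) : ZMod N).val),
      (Clifford.mem_conjOrbit H).2 ((hconj x x.2).imp fun c hc => hc.symm)⟩ : O))
    fun x y hxy => Subtype.ext (eq_of_mem_stab.1 (by
      exact Subgroup.mem_subgroupOf.1 (QuotientGroup.leftRel_apply.1 hxy)))
  have hFinj : Function.Injective F := by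
    intro u v h
    induction u using Quotient.inductionOn with
    | h x =>
      induction v using Quotient.inductionOn with
      | h y =>
        exact Quotient.sound (QuotientGroup.leftRel_apply.2 (Subgroup.mem_subgroupOf.2
          (eq_of_mem_stab.2 (congrArg Subtype.val h))))
  have hrle : (stab hNH θ).relIndex S ≤ O.card := by
    have h := Nat.card_le_card_of_injective F hFinj
    rwa [Nat.card_eq_finsetCard] at h
  have hr : (stab hNH θ).relIndex S * p ^ t = p ^ t' := by
    have h := Subgroup.relIndex_mul_index hst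
    rw [ht, ht'] at h
    refine Nat.eq_of_mul_eq_mul_left (Nat.sub_pos_of_lt hpp.one_lt) ?_
    rw [← h]; ring
  have htt : t' = t ∨ (t' = t + 1 ∧ O.card ≤ (stab hNH θ).relIndex S) := by
    have h1 : t ≤ t' := (Nat.pow_dvd_pow_iff_le_right hpp.one_lt).1 ⟨_, hr.symm.trans (mul_comm _ _)⟩
    obtain ⟨d, rfl⟩ := Nat.exists_eq_add_of_le h1
    rw [pow_add, mul_comm] at hr
    have hd := Nat.eq_of_mul_eq_mul_left (pow_pos hpp.pos t) hr
    have hd1 : p ^ d ≤ p ^ 1 := by rw [pow_one, ← hd]; exact hrle.trans hOp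
    rcases Nat.lt_or_ge d 1 with hd0 | hd0
    · left; omega
    · right
      have : d = 1 := le_antisymm ((Nat.pow_le_pow_iff_right hpp.one_lt).1 hd1) hd0
      subst this
      exact ⟨rfl, by rw [hd, pow_one]; exact hOp⟩
  have hg1 : 1 ≤ g := hg0
  rcases htt with htt | ⟨htt, hOr⟩ <;> rw [htt] at hbound
  · -- the kernel has index at most `p` times
    have hcardH : Nat.card H ≤ Nat.card (H ⧸ K) ^ p := by
      have hinj : Function.Injective
          (fun (h : H) (q : P ⧸ H) => ((MulAut.conjNormal q.out h : H) : H ⧸ K)) := by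
        intro h₁ h₂ he
        rw [← inv_mul_eq_one]
        refine hres _ fun c => ?_
        have hq := congrFun he (c : P ⧸ H)
        simp only [QuotientGroup.eq, ← map_inv, ← map_mul] at hq
        set d := ((c : P ⧸ H)).out with hd
        have hd' : c * d⁻¹ ∈ H := by
          rw [← QuotientGroup.eq_one_iff, QuotientGroup.mk_mul, QuotientGroup.mk_inv, hd,
            QuotientGroup.out_eq', mul_inv_cancel]
        have hcd : MulAut.conjNormal c (h₁⁻¹ * h₂) =
            ⟨c * d⁻¹, hd'⟩ * MulAut.conjNormal d (h₁⁻¹ * h₂) * ⟨c * d⁻¹, hd'⟩⁻¹ :=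
          Subtype.ext (by
            simp only [Subgroup.coe_mul, Subgroup.coe_inv, MulAut.conjNormal_apply]
            group)
        rw [hcd, IsIrrCharacter.isClassFunction hθ]
        exact (hK _).1 hq
      have h := Nat.card_le_card_of_injective _ hinj
      rwa [Nat.card_fun, show Nat.card (P ⧸ H) = p from (H.index_eq_card).symm.trans hidx] at h
    rw [hj, hb, ← pow_mul, Nat.pow_le_pow_iff_right hpp.one_lt] at hcardH
    rw [hfg]
    have h1 : (p - 1) * a = (p - 1) * j + (p - 1) := by rw [← hja]; ring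
    have h2 : (p - 1) * j ≤ p * ((p - 1) * b) := by
      calc (p - 1) * j ≤ (p - 1) * (b * p) := Nat.mul_le_mul_left _ hcardH
        _ = p * ((p - 1) * b) := by ring
    have h3 : p * ((p - 1) * b + 1) ≤ p * (g * (1 + (p - 1) * (t + 1))) :=
      Nat.mul_le_mul_left _ hbound
    have h4 : g * p * (1 + (p - 1) * (t + 1)) = p * (g * (1 + (p - 1) * (t + 1))) := by ring
    have h5 : p * ((p - 1) * b + 1) = p * ((p - 1) * b) + p := by ring
    have := hpp.one_lt
    omega
  · -- all conjugates are Galois conjugates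
    have hKbot : K = ⊥ := by
      rw [Subgroup.eq_bot_iff_forall]
      intro h hh
      refine hres h fun c => ?_
      have hsurj : Function.Surjective F := by
        refine (Function.Injective.bijective_of_nat_card_le hFinj ?_).2
        rw [Nat.card_eq_finsetCard]
        exact hOr
      obtain ⟨q, hq⟩ := hsurj ⟨Clifford.conjChar H θ c, (Clifford.mem_conjOrbit H).2 ⟨c, rfl⟩⟩
      induction q using Quotient.inductionOn with
      | h x =>
        have hq1 := congrFun (congrArg Subtype.val hq) h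
        change θ (h ^ ((x : (ZMod N)ˣ) : ZMod N).val) = _ at hq1
        have hq2 := congrFun (Clifford.conjChar_eq_comp H θ c) h
        exact (hq2.symm.trans hq1.symm).trans ((hK _).1 (K.pow_mem hh _))
    have hbj : b = j := by
      refine Nat.pow_right_injective hpp.two_le ?_
      show p ^ b = p ^ j
      rw [← hb, ← hj, hKbot]
      exact Nat.card_congr QuotientGroup.quotientBot.toEquiv
    subst hbj
    rw [hfg, ← hja]
    obtain ⟨q, rfl⟩ := Nat.exists_eq_add_of_le' hpp.one_lt.le
    simp only [Nat.add_sub_cancel] at hbound ⊢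
    have hq : 1 ≤ q := by have := hpp.two_le; omega
    have hq0 : q * 1 ≤ q * (g * (q * (t + 1))) :=
      Nat.mul_le_mul_left _ (Nat.mul_pos hg1 (Nat.mul_pos hq (Nat.succ_pos t)))
    nlinarith [hbound, hq0]

end CfsgLib.RealChar.PGalois
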