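import Cfsg.Agent.Lib.RealChar.GaloisPGroup
import Cfsg.Agent.Lib.Blocks.CentralDefect
import Mathlib.FieldTheory.PrimitiveElement

/-!
# Degree of the field of values; Schur's bound
-/

set_option autoImplicit false
set_option linter.unusedSectionVars false
set_option linter.style.haveILetI false

open Cfsg CfsgLib.CharTheory

namespace CfsgLib.RealChar.PGalois

universe u

variable {P : Type u} [Group P] [Fintype P] {N : ℕ} [NeZero N]

/-- The degree of the field of values is the number of Galois conjugates. -/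
theorem finrank_adjoin_range (hN : ∀ g : P, g ^ N = 1) {χ : P → ℂ} (hχ : IsCharacter P χ) :
    Module.finrank ℚ (IntermediateField.adjoin ℚ (Set.range χ)) = (stab hN χ).index := by
  classical
  obtain ⟨n, ρ, rfl⟩ := id hχ
  set K := IntermediateField.adjoin ℚ (Set.range ρ.character) with hK
  haveI : FiniteDimensional ℚ K := IntermediateField.finiteDimensional_adjoin fun x hx => by
    obtain ⟨g, rfl⟩ := hx
    exact (isIntegral_character ρ g).tower_top
  rw [← AlgHom.card ℚ K ℂ, ← Nat.card_eq_fintype_card, Subgroup.index]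
  have hσ : ∀ x : (ZMod N)ˣ, ∃ σ : ℂ ≃+* ℂ, ∀ g : P,
      σ (ρ.character g) = ρ.character (g ^ (x : ZMod N).val) := fun x => by
    obtain ⟨σ, hσ⟩ := CharDegreesTheory.exists_ringAut_complex N _ (ZMod.val_coe_unit_coprime x)
    exact ⟨σ, fun g => CharDegreesTheory.ringAut_apply_character σ hσ hχ
      (orderOf_dvd_of_pow_eq_one (hN g))⟩
  choose σ hσ using hσ
  let E : (ZMod N)ˣ → (K →ₐ[ℚ] ℂ) := fun x =>
    ((σ x).toRingHom.toRatAlgHom).comp K.val
  have hE : ∀ x g, E x ⟨ρ.character g, IntermediateField.subset_adjoin ℚ _ ⟨g, rfl⟩⟩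
      = ρ.character (g ^ (x : ZMod N).val) := fun x g => hσ x g
  have hext : ∀ φ ψ : K →ₐ[ℚ] ℂ, (∀ g, φ ⟨ρ.character g, IntermediateField.subset_adjoin ℚ _ ⟨g, rfl⟩⟩
      = ψ ⟨ρ.character g, IntermediateField.subset_adjoin ℚ _ ⟨g, rfl⟩⟩) → φ = ψ := by
    intro φ ψ h
    refine IntermediateField.algHom_ext_of_eq_adjoin ℚ hK ?_
    rintro _ ⟨g, rfl⟩
    exact h g
  refine (Nat.card_congr (Equiv.ofBijective (Quotient.lift E fun x y hxy => ?_) ⟨?_, ?_⟩)).symm
  · refine hext _ _ fun g => ?_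
    rw [hE, hE]
    exact congrFun (eq_of_mem_stab.1 (QuotientGroup.leftRel_apply.1 hxy)) g
  · intro a b h
    induction a using Quotient.inductionOn with
    | h x =>
      induction b using Quotient.inductionOn with
      | h y =>
        refine Quotient.sound (QuotientGroup.leftRel_apply.2 (eq_of_mem_stab.2 (funext fun g => ?_)))
        rw [← hE, ← hE]
        exact DFunLike.congr_fun h _
  · intro φ
    set S : Set ℂ := {z | z ^ N = 1} with hS
    have hKS : K ≤ IntermediateField.adjoin ℚ S := by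
      rw [hK, IntermediateField.adjoin_le_iff]
      rintro _ ⟨g, rfl⟩
      obtain ⟨ι, _, b, μ, -, hμ, -, hchar⟩ := exists_eigenbasis ρ g
      have h1 := hchar 1
      simp only [pow_one] at h1
      rw [h1]
      refine sum_mem fun i _ => IntermediateField.subset_adjoin ℚ _ ?_
      obtain ⟨d, hd⟩ := orderOf_dvd_of_pow_eq_one (hN g)
      show μ i ^ N = 1
      rw [hd, pow_mul, hμ, one_pow]
    have hint : ∀ s ∈ S, IsIntegral ℚ s ∧ ((minpoly ℚ s).map (algebraMap ℚ ℂ)).Splits :=
      fun s hs => ⟨IsIntegral.of_pow (NeZero.pos N) (by rw [hs]; exact isIntegral_one),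
        IsAlgClosed.splits _⟩
    obtain ⟨φ', hφ'⟩ := IntermediateField.exists_algHom_adjoin_of_splits hint φ hKS
    have hz := Complex.isPrimitiveRoot_exp N (NeZero.ne N)
    set ζ : IntermediateField.adjoin ℚ S :=
      ⟨_, IntermediateField.subset_adjoin ℚ S hz.pow_eq_one⟩
    have hζ : IsPrimitiveRoot ζ N :=
      IsPrimitiveRoot.of_map_of_injective (f := (IntermediateField.adjoin ℚ S).val) hz
        Subtype.val_injective
    obtain ⟨i, hi, hcop, hi'⟩ :=
      (hz.isPrimitiveRoot_iff (k := N)).1 (hζ.map_of_injective φ'.toRingHom.injective)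
    refine ⟨Quotient.mk _ (ZMod.unitOfCoprime i hcop), hext _ _ fun g => ?_⟩
    show E _ _ = _
    rw [hE, ZMod.coe_unitOfCoprime, ZMod.val_natCast, Nat.mod_eq_of_lt hi]
    refine Eq.trans ?_ (DFunLike.congr_fun hφ' _)
    show _ = φ' (IntermediateField.inclusion hKS _)
    obtain ⟨ι, _, b, μ, -, hμ, -, hchar⟩ := exists_eigenbasis ρ g
    have h1 := hchar 1
    simp only [pow_one] at h1
    have hμN : ∀ j, μ j ^ N = 1 := fun j => by
      obtain ⟨d, hd⟩ := orderOf_dvd_of_pow_eq_one (hN g)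
      rw [hd, pow_mul, hμ, one_pow]
    have hval : IntermediateField.inclusion hKS
        ⟨ρ.character g, IntermediateField.subset_adjoin ℚ _ ⟨g, rfl⟩⟩ =
        ∑ j, (⟨μ j, IntermediateField.subset_adjoin ℚ S (hμN j)⟩ : IntermediateField.adjoin ℚ S) :=
      Subtype.ext (by
        rw [IntermediateField.coe_inclusion, AddSubmonoidClass.coe_finsetSum]
        exact h1)
    rw [hval, map_sum, hchar i]
    refine Finset.sum_congr rfl fun j _ => ?_
    obtain ⟨e, -, he⟩ := hz.eq_pow_of_pow_eq_one (hμN j)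
    rw [show (⟨μ j, IntermediateField.subset_adjoin ℚ S (hμN j)⟩ :
      IntermediateField.adjoin ℚ S) = ζ ^ e from Subtype.ext (by rw [SubmonoidClass.coe_pow]; exact he.symm),
      map_pow, ← he, ← pow_mul, Nat.mul_comm e i, pow_mul]
    exact congrArg (· ^ e) hi'

section Bound

/-- The exponent in Schur's bound. -/
def schurExp (p n : ℕ) : ℕ := ∑ i ∈ Finset.range (n + 1), n / ((p - 1) * p ^ i)

theorem schurExp_add_le (p x y : ℕ) : schurExp p x + schurExp p y ≤ schurExp p (x + y) := by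
  unfold schurExp
  have h : ∀ z, z ≤ x + y → ∑ i ∈ Finset.range (z + 1), z / ((p - 1) * p ^ i)
      ≤ ∑ i ∈ Finset.range (x + y + 1), z / ((p - 1) * p ^ i) := fun z hz =>
    Finset.sum_le_sum_of_subset (Finset.range_subset_range.2 (by omega))
  refine (Nat.add_le_add (h x (by omega)) (h y (by omega))).trans ?_
  rw [← Finset.sum_add_distrib]
  exact Finset.sum_le_sum fun i _ => Nat.add_div_le_add_div _ _ _

theorem schurExp_mono (p : ℕ) {x y : ℕ} (h : x ≤ y) : schurExp p x ≤ schurExp p y := by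
  obtain ⟨z, rfl⟩ := Nat.exists_eq_add_of_le h
  exact le_trans (Nat.le_add_right _ _) (schurExp_add_le p x z)

theorem le_schurExp {p a j t : ℕ} (hp : 2 ≤ p)
    (h : (p - 1) * a + 1 ≤ p ^ j * (1 + (p - 1) * (t + 1))) :
    a ≤ schurExp p ((p - 1) * p ^ t * p ^ j) := by
  have hg := geom_id (p := p) (by omega) j
  set Gs := ∑ i ∈ Finset.range j, p ^ i with hGs
  have h1 : (p - 1) * a ≤ (p - 1) * (Gs + p ^ j * (t + 1)) := by
    have e : p ^ j * (1 + (p - 1) * (t + 1)) = p ^ j + (p - 1) * (p ^ j * (t + 1)) := by ring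
    rw [Nat.mul_add]
    omega
  refine (Nat.le_of_mul_le_mul_left h1 (by omega)).trans ?_
  have hr : t + j + 1 ≤ (p - 1) * p ^ t * p ^ j + 1 := by
    rw [mul_assoc, ← pow_add]
    have := Nat.lt_pow_self (n := t + j) (by omega : 1 < p)
    have h2 : 1 * p ^ (t + j) ≤ (p - 1) * p ^ (t + j) := Nat.mul_le_mul_right _ (by omega)
    omega
  refine le_trans ?_ (Finset.sum_le_sum_of_subset (Finset.range_subset_range.2 hr))
  rw [← Finset.sum_range_reflect, show t + j + 1 = j + (t + 1) by omega, Finset.sum_range_add]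
  refine Nat.add_le_add (Finset.sum_le_sum fun i hi => ?_) ?_
  · rw [Finset.mem_range] at hi
    rw [mul_assoc, ← pow_add, Nat.mul_div_mul_left _ _ (by omega : 0 < p - 1),
      Nat.pow_div (by omega) (by omega)]
    exact le_of_eq (congrArg _ (by omega))
  · refine le_trans (le_of_eq ?_) (Finset.sum_le_sum (f := fun _ => p ^ j) fun i hi => ?_)
    · rw [Finset.sum_const, Finset.card_range, smul_eq_mul, mul_comm]
    · rw [Finset.mem_range] at hi
      rw [mul_assoc, ← pow_add, Nat.mul_div_mul_left _ _ (by omega : 0 < p - 1),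
        Nat.pow_div (by omega) (by omega)]
      exact Nat.pow_le_pow_right (by omega) (by omega)

variable {p : ℕ} [hp : Fact p.Prime]

/-- The orbit of one constituent. -/
theorem orbit_bound (hP : IsPGroup p P) {A : ℕ} (hNA : N = p ^ (A + 1))
    (hN : ∀ g : P, g ^ N = 1) {ψ : P → ℂ} (hψ : IsIrrCharacter P ψ) :
    ∃ (K : Subgroup P) (b : ℕ), (∀ g ∈ K, ψ g = ψ 1) ∧ K.index = p ^ b ∧
      b ≤ schurExp p ((stab hN ψ).index * charDegree ψ) := by
  classical
  obtain ⟨K, hKn, hK, -⟩ := exists_kernel (IsIrrCharacter.isCharacter hψ)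
  haveI := hKn
  haveI := Fintype.ofFinite (P ⧸ K)
  obtain ⟨η, hη, hηeq⟩ := exists_descend hψ K fun h hh => (hK h).1 hh
  obtain ⟨b, hb⟩ := IsPGroup.iff_card.1 (hP.to_quotient K)
  refine ⟨K, b, fun g hg => (hK g).1 hg, K.index_eq_card.trans hb, ?_⟩
  rcases Nat.eq_zero_or_pos b with rfl | hb0
  · exact Nat.zero_le _
  have hfaith : ∀ q, η q = η 1 → q = 1 := by
    intro q hq
    obtain ⟨h, rfl⟩ := QuotientGroup.mk_surjective q
    rw [← QuotientGroup.mk_one, ← hηeq, ← hηeq] at hq
    exact (QuotientGroup.eq_one_iff h).2 ((hK h).2 hq)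
  have hNK : ∀ q : P ⧸ K, q ^ N = 1 := fun q => by
    obtain ⟨h, rfl⟩ := QuotientGroup.mk_surjective q
    rw [← QuotientGroup.mk_pow, hN, QuotientGroup.mk_one]
  obtain ⟨t, f, hf, ht, hbound⟩ := exists_bound hNA b (P ⧸ K) hNK hb hb0 η hη hfaith
  have hsteq : stab hNK η = stab hN ψ := by
    ext x
    simp only [mem_stab]
    constructor
    · intro h y
      rw [hηeq, hηeq, QuotientGroup.mk_pow]; exact h _
    · intro h q
      obtain ⟨y, rfl⟩ := QuotientGroup.mk_surjective q
      rw [← QuotientGroup.mk_pow, ← hηeq, ← hηeq]; exact h y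
  obtain ⟨f', -, hdvd, hf'⟩ := IsIrrCharacter.exists_degree_dvd hη
  have hff : f' = f := by rw [hf'] at hf; exact_mod_cast hf
  rw [hff, hb] at hdvd
  obtain ⟨j, -, hj⟩ := (Nat.dvd_prime_pow hp.out).1 hdvd
  have hdeg : charDegree ψ = f := by
    rw [charDegree, hηeq 1, QuotientGroup.mk_one, hf, Complex.natCast_re, Nat.floor_natCast]
  rw [← hsteq, ht, hdeg, hj]
  exact le_schurExp hp.out.two_le (hj ▸ hbound)

/-- Schur's bound for rational characters of `p`-groups. -/
theorem rational_bound (hP : IsPGroup p P) {A : ℕ} (hNA : N = p ^ (A + 1))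
    (hN : ∀ g : P, g ^ N = 1) :
    ∀ (n : ℕ) (χ : P → ℂ), IsCharacter P χ → χ 1 = (n : ℂ) →
      (∀ (g : P) (x : (ZMod N)ˣ), χ (g ^ (x : ZMod N).val) = χ g) →
      ∃ (K : Subgroup P) (b : ℕ), (∀ g ∈ K, χ g = χ 1) ∧ K.index = p ^ b ∧
        b ≤ schurExp p n := by
  intro n
  induction n using Nat.strong_induction_on with
  | _ n ih =>
  intro χ hχ hn hrat
  classical
  rcases Nat.eq_zero_or_pos n with rfl | hn0
  · refine ⟨⊤, 0, fun g _ => ?_, by simp, Nat.zero_le _⟩
    have h := Coherence.norm_apply_le_re hχ g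
    rw [hn, Nat.cast_zero, Complex.zero_re, norm_le_zero_iff] at h
    rw [h, hn, Nat.cast_zero]
  obtain ⟨ψ, hψ, hψc⟩ := Coherence.exists_constituent hχ (by
    rw [hn]; exact Nat.cast_ne_zero.2 hn0.ne')
  set O : Finset (P → ℂ) :=
    Finset.univ.image fun x : (ZMod N)ˣ => fun g => ψ (g ^ (x : ZMod N).val) with hO
  have hOcard : O.card = (stab hN ψ).index := by
    rw [← card_orbit hN ψ, ← Nat.card_eq_finsetCard]
    exact Nat.card_congr (Equiv.subtypeEquivRight fun φ => by simp [hO])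
  have hmem : ∀ φ ∈ O, IsIrrCharacter P φ ∧ classInner χ φ ≠ 0 := by
    intro φ hφ
    obtain ⟨x, -, rfl⟩ := Finset.mem_image.1 hφ
    refine ⟨isIrr_powTwist hN hψ x, ?_⟩
    have e : classInner χ (fun g => ψ (g ^ (x : ZMod N).val)) = classInner χ ψ := by
      simp only [classInner]
      congr 1
      refine Fintype.sum_bijective (fun h : P => h ^ (x : ZMod N).val) ?_ _ _ fun h => ?_
      · exact ⟨fun h k hk => by
          rw [← pow_val_inv hN h x, ← pow_val_inv hN k x]; exact congrArg (· ^ _) hk,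
          fun h => ⟨h ^ ((x⁻¹ : (ZMod N)ˣ) : ZMod N).val, by
            simp only []
            rw [← pow_val_mul hN, inv_mul_cancel, pow_val_one hN]⟩⟩
      · rw [hrat]
    rw [e]; exact hψc
  have hsub : ∀ S : Finset (P → ℂ), S ⊆ O → IsCharacter P (χ - ∑ φ ∈ S, φ) := by
    intro S
    induction S using Finset.induction_on with
    | empty => intro _; simpa using hχ
    | insert φ S hφS ihS =>
      intro hS
      obtain ⟨hφO, hSO⟩ := Finset.insert_subset_iff.1 hS
      have h := Coherence.isCharacter_sub_constituent (ihS hSO) (hmem φ hφO).1 (by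
        have e : classInner (χ - ∑ φ ∈ S, φ) φ = classInner χ φ := by
          have e1 : classInner (∑ φ ∈ S, φ) φ = 0 := by
            rw [classInner_sum_left]
            exact Finset.sum_eq_zero fun ξ hξ => classInner_eq_zero_of_ne (hmem ξ (hSO hξ)).1
              (hmem φ hφO).1 fun he => hφS (he ▸ hξ)
          rw [sub_eq_add_neg, classInner_add_left, ← neg_one_smul ℂ, classInner_smul_left, e1]
          ring
        rw [e]; exact (hmem φ hφO).2)
      rw [Finset.sum_insert hφS]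
      simpa [sub_sub, add_comm] using h
  have hχ' := hsub O subset_rfl
  obtain ⟨d, hd, hd1⟩ := exists_degree_of_isIrr hψ
  obtain ⟨n', hn'⟩ := exists_degree_of_isCharacter hχ'
  have hO1 : ∀ φ ∈ O, φ 1 = (d : ℂ) := fun φ hφ => by
    obtain ⟨x, -, rfl⟩ := Finset.mem_image.1 hφ
    simp only [one_pow, hd1]
  have hnn : n = n' + O.card * d := by
    have h := hn'
    rw [Pi.sub_apply, Finset.sum_apply, Finset.sum_congr rfl hO1, Finset.sum_const, nsmul_eq_mul,
      hn, sub_eq_iff_eq_add] at h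
    exact_mod_cast h
  have hOpos : 0 < O.card := Finset.card_pos.2
    ⟨_, Finset.mem_image.2 ⟨1, Finset.mem_univ _, rfl⟩⟩
  have hlt : n' < n := by
    have := Nat.mul_pos hOpos hd
    omega
  obtain ⟨K₁, b₁, hK₁, hi₁, hb₁⟩ := ih n' hlt _ hχ' hn' (fun g x => by
    simp only [Pi.sub_apply, Finset.sum_apply, hrat]
    congr 1
    refine Finset.sum_bij' (fun φ _ => fun h => φ (h ^ (x : ZMod N).val))
      (fun φ _ => fun h => φ (h ^ ((x⁻¹ : (ZMod N)ˣ) : ZMod N).val)) ?_ ?_ ?_ ?_ ?_
    · intro φ hφ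
      obtain ⟨y, -, rfl⟩ := Finset.mem_image.1 hφ
      exact Finset.mem_image.2 ⟨x * y, Finset.mem_univ _, funext fun h => by rw [pow_val_mul hN]⟩
    · intro φ hφ
      obtain ⟨y, -, rfl⟩ := Finset.mem_image.1 hφ
      exact Finset.mem_image.2 ⟨x⁻¹ * y, Finset.mem_univ _, funext fun h => by rw [pow_val_mul hN]⟩
    · exact fun φ _ => funext fun h => by simp only []; rw [← pow_val_mul hN, inv_mul_cancel, pow_val_one hN]
    · exact fun φ _ => funext fun h => by simp only []; rw [← pow_val_mul hN, mul_inv_cancel, pow_val_one hN]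
    · exact fun φ _ => rfl)
  obtain ⟨K₂, b₂, hK₂, hi₂, hb₂⟩ := orbit_bound hP hNA hN hψ
  obtain ⟨b, hb⟩ := hP.index (K₁ ⊓ K₂)
  refine ⟨K₁ ⊓ K₂, b, fun g hg => ?_, hb, ?_⟩
  · have h1 := hK₁ g hg.1
    have h2 : ∀ φ ∈ O, φ g = φ 1 := fun φ hφ => by
      obtain ⟨x, -, rfl⟩ := Finset.mem_image.1 hφ
      simp only [one_pow]
      exact hK₂ _ (K₂.pow_mem hg.2 _)
    simp only [Pi.sub_apply, Finset.sum_apply, Finset.sum_congr rfl h2] at h1
    exact sub_left_injective h1
  · have h := Subgroup.index_inf_le (H := K₁) (K := K₂)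
    rw [hb, hi₁, hi₂, ← pow_add, Nat.pow_le_pow_iff_right hp.out.one_lt] at h
    have hdd : charDegree ψ = d := by
      rw [charDegree, hd1, Complex.natCast_re, Nat.floor_natCast]
    rw [hdd, ← hOcard] at hb₂
    rw [hnn]
    exact h.trans ((Nat.add_le_add hb₁ hb₂).trans (schurExp_add_le p _ _))

end Bound

end CfsgLib.RealChar.PGalois
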