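import Cfsg.Agent.Lib.BrauerPairs.BridgePairs
import Cfsg.Agent.Lib.BrauerPairs.BridgeDefect
import Cfsg.Agent.Lib.BrauerPairs.InducedBridge
import Cfsg.Agent.Lib.BrauerPairs.Local
import Cfsg.Agent.Lib.BrauerPairs.FirstMain
import Cfsg.Agent.Lib.BrauerPairs.NormalP
import Cfsg.Agent.Lib.BrauerPairs.Nilpotent
import Cfsg.Agent.Lib.BGAppendix.PiCore
import Cfsg.Agent.Lib.BlockLocal.ClassFunctional
import Cfsg.Agent.Lib.CharTheory.Inflation

/-!
# Kernels of blocks along Brauer pairs

A normal `p'`-subgroup lies in the kernel of a block exactly when it fixes the reduced block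
idempotent from the left.  This property moves up and down along inclusions of Brauer pairs.
-/

set_option autoImplicit false
set_option linter.style.haveILetI false
set_option linter.unusedSectionVars false

noncomputable section

namespace CfsgLib.RealChar.PiKernel

open MonoidAlgebra Cfsg CfsgLib.BrauerPairs CfsgLib.BGAppendix

section Algebra

variable {k : Type*} [Field k] {G : Type*} [Group G] [Finite G]

variable (k) in
/-- The average over a subgroup. -/
def avg (O : Subgroup G) [Fintype O] : MonoidAlgebra k G :=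
  (Nat.card O : k)⁻¹ • ∑ u : O, single (u : G) (1 : k)

theorem single_mul_avg {O : Subgroup G} [Fintype O] {u : G} (hu : u ∈ O) :
    single u (1 : k) * avg k O = avg k O := by
  rw [avg, Algebra.mul_smul_comm, Finset.mul_sum]
  congr 1
  exact Fintype.sum_equiv (Equiv.mulLeft (⟨u, hu⟩ : O)) _ _ fun x => by simp

theorem avg_mul_eq_iff {O : Subgroup G} [Fintype O] (hO : (Nat.card O : k) ≠ 0)
    {x : MonoidAlgebra k G} : avg k O * x = x ↔ O ≤ leftStab x := by
  constructor
  · intro h u hu
    rw [mem_leftStab, ← h, ← mul_assoc, single_mul_avg hu]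
  · intro h
    rw [avg, Algebra.smul_mul_assoc, Finset.sum_mul,
      Finset.sum_congr rfl fun (u : O) _ => mem_leftStab.1 (h u.2), Finset.sum_const,
      Finset.card_univ, ← Nat.card_eq_fintype_card, ← Nat.cast_smul_eq_nsmul k, smul_smul,
      inv_mul_cancel₀ hO, one_smul]

theorem avg_mul_self {O : Subgroup G} [Fintype O] (hO : (Nat.card O : k) ≠ 0) :
    avg k O * avg k O = avg k O :=
  (avg_mul_eq_iff hO).2 fun _ hu => single_mul_avg hu

theorem avg_mem_supp (O : Subgroup G) [Fintype O] : avg k O ∈ supp k O :=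
  Subalgebra.smul_mem _ (sum_mem fun u _ => single_mem_supp u.2 1) _

theorem conjA_avg {O : Subgroup G} [Fintype O] {c : G}
    (hc : c ∈ Subgroup.normalizer (O : Set G)) : conjA c (avg k O) = avg k O := by
  rw [avg, map_smul, map_sum]
  congr 1
  refine Fintype.sum_equiv
    ((MulAut.conj c).toEquiv.subtypeEquiv fun x => Subgroup.mem_normalizer_iff.1 hc x) _ _ fun u => ?_
  simp

theorem trunc_single_of_mem {C : Subgroup G} {g : G} (hg : g ∈ C) :
    trunc C (single g (1 : k)) = single g 1 :=
  trunc_eq_self (single_mem_supp hg 1)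

theorem trunc_single_of_not_mem {C : Subgroup G} {g : G} (hg : g ∉ C) :
    trunc C (single g (1 : k)) = 0 := by
  ext h
  by_cases hh : h ∈ C
  · rw [coeff_trunc_of_mem hh]
    have : g ≠ h := fun e => hg (e ▸ hh)
    simp [this]
  · rw [coeff_trunc_of_not_mem hh]; simp

theorem trunc_single_mul {C : Subgroup G} {u : G} (hu : u ∈ C) (x : MonoidAlgebra k G) :
    trunc C (single u 1 * x) = single u 1 * trunc C x := by
  ext g
  by_cases hg : g ∈ C
  · rw [coeff_trunc_of_mem hg]
    simp [coeff_trunc_of_mem (C.mul_mem (C.inv_mem hu) hg)]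
  · rw [coeff_trunc_of_not_mem hg]
    have : u⁻¹ * g ∉ C := fun h => hg (by simpa using C.mul_mem hu h)
    simp [coeff_trunc_of_not_mem this]

variable {p : ℕ} [Fact p.Prime] [CharP k p]

theorem cast_card_ne_zero {O : Subgroup G} (hO : ¬ p ∣ Nat.card O) : (Nat.card O : k) ≠ 0 :=
  fun h => hO ((CharP.cast_eq_zero_iff k p _).1 h)

/-- The Brauer map sends the average over an invariant `p'`-subgroup to the average over its
centraliser part. -/
theorem brau_avg {S O : Subgroup G} [Fintype O]
    [Fintype ↥(O ⊓ Subgroup.centralizer (S : Set G))] (hS : IsPGroup p S)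
    (hSO : S ≤ Subgroup.normalizer (O : Set G)) (hO : ¬ p ∣ Nat.card O) :
    brau S (avg k O) = avg k (O ⊓ Subgroup.centralizer (S : Set G)) := by
  classical
  set W := O ⊓ Subgroup.centralizer (S : Set G) with hW
  have hW' : ¬ p ∣ Nat.card W := fun h =>
    hO (h.trans (Subgroup.card_dvd_of_le inf_le_left))
  have hscal : brau S (avg k O) = ((Nat.card O : k)⁻¹ * (Nat.card W : k)) • avg k W := by
    rw [avg, avg, map_smul, map_sum, smul_smul, mul_assoc,
      mul_inv_cancel₀ (cast_card_ne_zero hW'), mul_one]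
    congr 1
    rw [← Finset.sum_filter_add_sum_filter_not Finset.univ
      (fun u : O => (u : G) ∈ Subgroup.centralizer (S : Set G)),
      Finset.sum_eq_zero (s := Finset.univ.filter fun u : O =>
          ¬ (u : G) ∈ Subgroup.centralizer (S : Set G))
        (fun u hu => trunc_single_of_not_mem (Finset.mem_filter.1 hu).2), add_zero]
    refine Finset.sum_bij (fun u hu => (⟨(u : G), u.2, (Finset.mem_filter.1 hu).2⟩ : W))
      (fun _ _ => Finset.mem_univ _) (fun a _ b _ h => Subtype.ext (congrArg (fun w : W => (w : G)) h))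
      (fun w _ => ⟨⟨w, w.2.1⟩, Finset.mem_filter.2 ⟨Finset.mem_univ _, w.2.2⟩, rfl⟩)
      fun u hu => trunc_single_of_mem (Finset.mem_filter.1 hu).2
  set c := (Nat.card O : k)⁻¹ * (Nat.card W : k) with hc
  have hc0 : c ≠ 0 :=
    mul_ne_zero (inv_ne_zero (cast_card_ne_zero hO)) (cast_card_ne_zero hW')
  have hfix : avg k O ∈ fixedBy k S := fun s hs => conjA_avg (hSO hs)
  have hii := brau_idem hS hfix (avg_mul_self (cast_card_ne_zero hO))
  rw [hscal, smul_mul_smul_comm, avg_mul_self (cast_card_ne_zero hW')] at hii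
  have hne : avg k W ≠ 0 := by
    intro h0
    have h := congrArg (fun x : MonoidAlgebra k G => x * 1) h0
    have h2 : ((avg k W) * avg k W).coeff (1 : G) = 0 := by simp [h0]
    rw [avg_mul_self (cast_card_ne_zero hW'), avg, coeff_smul, coeff_sum, Finsupp.smul_apply,
      Finsupp.finsetSum_apply, Finset.sum_eq_single (1 : W)] at h2
    · simp at h2
      exact cast_card_ne_zero hW' (by rwa [Nat.card_eq_fintype_card])
    · intro b _ hb
      have : (b : G) ≠ 1 := fun e => hb (Subtype.ext e)
      simp [this]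
    · simp
  have hcc : c * c = c := by
    by_contra hne'
    have : (c * c - c) • avg k W = 0 := by rw [sub_smul, hii, sub_self]
    exact hne ((smul_eq_zero.1 this).resolve_left (sub_ne_zero.2 hne'))
  have hc1 : c = 1 := mul_left_cancel₀ hc0 (by rw [hcc, mul_one])
  rw [hscal, hc1, one_smul]
  convert rfl

/-- The `π'`-core of the centraliser. -/
abbrev core (π : Set ℕ) (S : Subgroup G) : Subgroup G :=
  piCoreOf {q | q ∉ π} (Subgroup.centralizer (S : Set G))

theorem not_dvd_card_piCoreOf {π : Set ℕ} (hπ : p ∈ π) (X : Subgroup G) :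
    ¬ p ∣ Nat.card (piCoreOf {q | q ∉ π} X) :=
  fun h => (piSubgroup_piCoreOf {q | q ∉ π} X p Fact.out h) hπ

/-- If the core of `C(S)` fixes `g`, and `(R, f)` lies normally below `(S, g)`, then the core of
`C(R)` fixes `f`. -/
theorem core_le_leftStab_of_normalLE {π : Set ℕ} (hπ : p ∈ π) {R S : Subgroup G}
    {f g : MonoidAlgebra k G} (h : NormalLE p (⊤ : Subgroup G) R f S g)
    (hg : core π S ≤ leftStab g) : core π R ≤ leftStab f := by
  classical
  set O := core π R with hOdef
  haveI := Fintype.ofFinite O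
  obtain ⟨hR, hS, hRS, hSR, hfS, hfg⟩ := h
  have hOp : ¬ p ∣ Nat.card O := not_dvd_card_piCoreOf hπ _
  have hnC : Subgroup.centralizer (R : Set G) ≤ Subgroup.normalizer (O : Set G) :=
    le_normalizer_piCoreOf _ _
  have hSO : S ≤ Subgroup.normalizer (O : Set G) := fun s hs =>
    normalizer_le_normalizer_piCoreOf _ _ (normalizer_le_normalizer_cen R (hSR hs))
  have hfctr : f ∈ ctr k (Subgroup.centralizer (R : Set G)) := by
    have := hR.2.2.mem
    rwa [cenIn_top] at this
  have hOctr : avg k O ∈ ctr k (Subgroup.centralizer (R : Set G)) :=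
    mem_ctr.2 ⟨supp_mono (piCoreOf_le _ _) (avg_mem_supp O), fun c hc => conjA_avg (hnC hc)⟩
  have hii := avg_mul_self (k := k) (cast_card_ne_zero hOp)
  have hfb : IsBlockIdem (Subgroup.centralizer (R : Set G)) f := by
    have := hR.2.2
    rwa [cenIn_top] at this
  rcases hfb.2.2.2 _ hOctr hii with h0 | h0
  · exfalso
    set W := O ⊓ Subgroup.centralizer (S : Set G) with hWdef
    haveI := Fintype.ofFinite W
    have hWp : ¬ p ∣ Nat.card W := fun h => hOp (h.trans (Subgroup.card_dvd_of_le inf_le_left))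
    have hWcore : W ≤ core π S := by
      refine le_piCoreOf inf_le_right ?_ (piSubgroup_mono (piSubgroup_piCoreOf _ _) inf_le_left)
      intro c hc
      have h1 : c ∈ Subgroup.normalizer (O : Set G) :=
        hnC (Subgroup.centralizer_le (SetLike.coe_subset_coe.2 hRS) hc)
      refine Subgroup.mem_normalizer_iff.2 fun x => ?_
      have h2 := Subgroup.mem_normalizer_iff.1 h1 x
      have h3 := Subgroup.mem_normalizer_iff.1
        (Subgroup.le_normalizer hc : c ∈ Subgroup.normalizer (Subgroup.centralizer (S : Set G) : Set G)) x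
      simp only [hWdef, Subgroup.mem_inf, h2, h3]
    have hfix : avg k O ∈ fixedBy k S := fun s hs => conjA_avg (hSO hs)
    have h1 : brau S (avg k O * f) = 0 := by
      rw [ctr_commute hOctr hfctr, h0, map_zero]
    rw [brau, trunc_centralizer_mul hS.1 hfix hfS] at h1
    have h2 : brau S (avg k O) * (brau S f * g) = 0 := by
      rw [← mul_assoc]
      exact (congrArg (· * g) h1).trans (zero_mul g)
    rw [hfg, brau_avg hS.1 hSO hOp,
      (avg_mul_eq_iff (cast_card_ne_zero hWp)).2 (hWcore.trans hg)] at h2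
    exact hS.2.2.ne_zero h2
  · rw [← avg_mul_eq_iff (cast_card_ne_zero hOp), ctr_commute hOctr hfctr]
    exact h0

theorem core_le_leftStab_of_pairLE {π : Set ℕ} (hπ : p ∈ π) {R S : Subgroup G}
    {f g : MonoidAlgebra k G} (h : PairLE p (⊤ : Subgroup G) R f S g)
    (hg : core π S ≤ leftStab g) : core π R ≤ leftStab f := by
  suffices ∀ a b : Subgroup G × MonoidAlgebra k G,
      Relation.ReflTransGen (NormalRel p (⊤ : Subgroup G)) a b →
      core π b.1 ≤ leftStab b.2 → core π a.1 ≤ leftStab a.2 from this (R, f) (S, g) h hg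
  intro a b hab
  induction hab using Relation.ReflTransGen.head_induction_on with
  | refl => exact id
  | head hac _ ih => exact fun hb => core_le_leftStab_of_normalLE hπ hac (ih hb)

theorem mem_leftStab_of_pairLE {R S : Subgroup G} {f g : MonoidAlgebra k G}
    (h : PairLE p (⊤ : Subgroup G) R f S g) {u : G}
    (hu : u ∈ Subgroup.centralizer (S : Set G)) (hf : u ∈ leftStab f) : u ∈ leftStab g := by
  suffices ∀ a b : Subgroup G × MonoidAlgebra k G,
      Relation.ReflTransGen (NormalRel p (⊤ : Subgroup G)) a b →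
      u ∈ Subgroup.centralizer (b.1 : Set G) → u ∈ leftStab a.2 → u ∈ leftStab b.2 from
    this (R, f) (S, g) h hu hf
  intro a b hab
  induction hab with
  | refl => exact fun _ => id
  | @tail c d _ hcd ih =>
    intro hud hua
    obtain ⟨-, hd, hcd', -, hfd, hbr⟩ := hcd
    have hc := ih (Subgroup.centralizer_le (SetLike.coe_subset_coe.2 hcd') hud) hua
    rw [mem_leftStab] at hc ⊢
    rw [← hbr, ← mul_assoc]
    congr 1
    conv_rhs => rw [← hc]
    exact (trunc_single_mul hud c.2).symm

theorem cj_le_leftStab_conjA {O : Subgroup G} {x : MonoidAlgebra k G} (h : O ≤ leftStab x)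
    (c : G) : cj c O ≤ leftStab (conjA c x) := by
  rintro _ ⟨u, hu, rfl⟩
  rw [mem_leftStab]
  have := congrArg (conjA c) (mem_leftStab.1 (h hu))
  rw [map_mul, conjA_single] at this
  exact this

theorem core_cj (π : Set ℕ) (c : G) (S : Subgroup G) : cj c (core π S) ≤ core π (cj c S) := by
  refine le_piCoreOf ?_ ?_ (piSubgroup_map (piSubgroup_piCoreOf _ _) _)
  · rw [cj_centralizer]
    exact cj_le_cj (piCoreOf_le _ _)
  · rw [cj_centralizer, cj_normalizer]
    exact cj_le_cj (le_normalizer_piCoreOf _ _)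

theorem core_le_leftStab_conj {π : Set ℕ} (c : G) {S : Subgroup G} {x : MonoidAlgebra k G}
    (h : core π S ≤ leftStab x) : core π (cj c S) ≤ leftStab (conjA c x) := by
  refine le_trans ?_ (cj_le_leftStab_conjA h c)
  have h1 := core_cj π c⁻¹ (cj c S)
  rw [← cj_mul, inv_mul_cancel, cj_one] at h1
  have h2 := cj_le_cj (c := c) h1
  rwa [← cj_mul, mul_inv_cancel, cj_one] at h2

end Algebra

section Blocks

variable {G : Type*} [Group G] [Finite G] {p : ℕ} [hp : Fact p.Prime] {M : Ideal AlgInt}
  [hMp : M.IsPrime]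

/-- Left fixed block idempotent iff in the kernel, for a normal `p'`-subgroup. -/
theorem le_leftStab_iff (hM : IsPModular p M) (O : Subgroup G) [O.Normal]
    (hO : ¬ p ∣ Nat.card O) {B : Set (IrrCharacter G)} (hB : IsPBlock M B) :
    O ≤ leftStab (redElem M (blockCoeff B)) ↔ ∀ u ∈ O, u ∈ blockKer B := by
  classical
  haveI := Fintype.ofFinite G
  haveI := Fintype.ofFinite (IrrCharacter G)
  haveI : CharP (Blocks.Res M) p := Blocks.charP_res hM
  have hloc : ∀ g, MemLocalRing M (blockCoeff B g) := Blocks.memLocalRing_blockCoeff hB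
  have hshift : ∀ (x : MonoidAlgebra (Blocks.Res M) G) (u g : G),
      (single u (1 : Blocks.Res M) * x).coeff g = x.coeff (u⁻¹ * g) := by
    intro x u g; simp
  constructor
  · intro hst u₀ hu₀ χ hχ
    set β : G → ℂ := fun g => (Nat.card O : ℂ)⁻¹ * ∑ u : O, blockCoeff B ((u : G) * g) with hβ
    have hlocβ : ∀ g, MemLocalRing M (β g) := fun g =>
      Blocks.memLocalRing_mul (Blocks.memLocalRing_inv_natCast hM hO)
        (Blocks.memLocalRing_sum fun u _ => hloc _)
    have hclβ : IsClassFunction G β := by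
      intro g c
      simp only [hβ]
      congr 1
      refine (Fintype.sum_equiv ((MulAut.conj c).toEquiv.subtypeEquiv fun x =>
        ⟨fun hx => Subgroup.Normal.conj_mem inferInstance x hx c, fun hx => by
          have := Subgroup.Normal.conj_mem (H := O) inferInstance _ hx c⁻¹
          simpa [mul_assoc] using this⟩) _ _ fun u => ?_).symm
      rw [show ((((MulAut.conj c).toEquiv.subtypeEquiv _) u : O) : G) * (c * g * c⁻¹)
          = c * ((u : G) * g) * c⁻¹ by simp [mul_assoc]]
      exact (Blocks.blockCoeff_conj B c _).symm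
    set P : IrrCharacter G → Prop := fun ξ => ξ ∈ B ∧ ∀ u ∈ O, (ξ : G → ℂ) u = (ξ : G → ℂ) 1
      with hP
    have havg : ∀ (ξ : IrrCharacter G) (g : G), ∑ u : O, (ξ : G → ℂ) ((u : G) * g) =
        if ∀ u ∈ O, (ξ : G → ℂ) u = (ξ : G → ℂ) 1 then (Nat.card O : ℂ) * (ξ : G → ℂ) g else 0 := by
      intro ξ g
      split_ifs with hker
      · obtain ⟨K, -, hK, hKm⟩ := CharTheory.exists_kernel (CharTheory.IsIrrCharacter.isCharacter ξ.2)
        rw [Finset.sum_congr rfl fun (u : O) _ => (hKm g (u : G) ((hK u).2 (hker u u.2))).2]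
        simp [Nat.card_eq_fintype_card]
      · obtain ⟨n, ρ, hρ, hχρ⟩ := ξ.2
        set W : Submodule ℂ (Fin n → ℂ) := ⨅ c : O, LinearMap.ker (ρ c - 1) with hW
        have hmem : ∀ v, v ∈ W ↔ ∀ c ∈ O, ρ c v = v := by
          intro v; simp [hW, sub_eq_zero]
        have hinv : ∀ g : G, ∀ v ∈ W, ρ g v ∈ W := by
          intro g v hv
          rw [hmem] at hv ⊢
          intro c hc
          have hc' : g⁻¹ * c * g ∈ O := by
            simpa using Subgroup.Normal.conj_mem (H := O) inferInstance c hc g⁻¹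
          have : ρ c * ρ g = ρ g * ρ (g⁻¹ * c * g) := by
            rw [← map_mul, ← map_mul]; group
          calc ρ c (ρ g v) = (ρ c * ρ g) v := rfl
            _ = ρ g v := by rw [this, Module.End.mul_apply, hv _ hc']
        let Ws : Subrepresentation ρ := ⟨W, fun g v hv => hinv g v hv⟩
        haveI : IsSimpleOrder (Subrepresentation ρ) := hρ
        rcases IsSimpleOrder.eq_bot_or_eq_top Ws with hb | ht
        · have hb' : W = ⊥ := congrArg (fun X : Subrepresentation ρ => X.toSubmodule) hb
          have hS : (∑ u : O, ρ (u : G)) = 0 := by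
            refine LinearMap.ext fun v => ?_
            have : (∑ u : O, ρ (u : G)) v ∈ W := by
              rw [hmem]
              intro c hc
              rw [← Module.End.mul_apply, Finset.mul_sum]
              congr 1
              exact Fintype.sum_equiv (Equiv.mulLeft (⟨c, hc⟩ : O)) _ _ fun u => by simp
            rw [hb', Submodule.mem_bot] at this
            simpa using this
          rw [← hχρ]
          simp only [Representation.character, map_mul]
          rw [← map_sum, ← Finset.sum_mul, hS, zero_mul, map_zero]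
        · exfalso
          have ht' : W = ⊤ := congrArg (fun X : Subrepresentation ρ => X.toSubmodule) ht
          refine hker fun u hu => ?_
          have : ρ u = 1 := LinearMap.ext fun v => (hmem v).1 (ht' ▸ Submodule.mem_top) u hu
          rw [← hχρ]
          simp [Representation.character, this]
    have hω : ∀ ξ : IrrCharacter G, (∑ x, β x * (ξ : G → ℂ) x) / (ξ : G → ℂ) 1
        = if P ξ then 1 else 0 := by
      intro ξ
      have hO0 : (Nat.card O : ℂ) ≠ 0 := Nat.cast_ne_zero.2 Nat.card_pos.ne'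
      have h1 : ∑ x, β x * (ξ : G → ℂ) x
          = (Nat.card O : ℂ)⁻¹ * ∑ x, blockCoeff B x * ∑ u : O, (ξ : G → ℂ) ((u : G) * x) := by
        simp only [hβ, mul_assoc, ← Finset.mul_sum, Finset.sum_mul]
        congr 1
        rw [Finset.sum_comm]
        conv_rhs => simp only [Finset.mul_sum]; rw [Finset.sum_comm]
        refine Fintype.sum_equiv (Equiv.inv O) _ _ fun u => ?_
        refine Fintype.sum_equiv (Equiv.mulLeft (u : G)) _ _ fun x => ?_
        simp
      have h2 : (∑ x, blockCoeff B x * (ξ : G → ℂ) x) / (ξ : G → ℂ) 1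
          = if ξ ∈ B then 1 else 0 := by
        rw [← Blocks.omega_blockIdem B ξ, Blocks.omega_eq_sum]
        rfl
      rw [h1]
      simp only [havg ξ]
      by_cases hker : ∀ u ∈ O, (ξ : G → ℂ) u = (ξ : G → ℂ) 1
      · have h3 : ∑ x, blockCoeff B x * ((Nat.card O : ℂ) * (ξ : G → ℂ) x)
            = (Nat.card O : ℂ) * ∑ x, blockCoeff B x * (ξ : G → ℂ) x := by
          rw [Finset.mul_sum]; exact Finset.sum_congr rfl fun x _ => by ring
        simp only [if_pos hker]
        rw [h3, ← mul_assoc, inv_mul_cancel₀ hO0, one_mul, h2]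
        simp [hP, and_iff_left hker]
      · simp [if_neg hker, hP, hker]
    have hred : redElem M β = redElem M (blockCoeff B) := by
      ext g
      rw [coeff_redElem, coeff_redElem, redC_of_mem (hlocβ g), redC_of_mem (hloc g)]
      have hb : ∀ u : O, Blocks.red M ⟨blockCoeff B ((u : G) * g), hloc _⟩
          = Blocks.red M ⟨blockCoeff B g, hloc g⟩ := by
        intro u
        have h1 := congrArg (fun x : MonoidAlgebra (Blocks.Res M) G => x.coeff g)
          (mem_leftStab.1 (hst (O.inv_mem u.2)))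
        simp only [hshift, inv_inv, coeff_redElem, redC_of_mem (hloc _)] at h1
        exact h1
      have heq : (⟨β g, hlocβ g⟩ : Blocks.locRing M)
          = ⟨(Nat.card O : ℂ)⁻¹, Blocks.memLocalRing_inv_natCast hM hO⟩ *
              ∑ u : O, ⟨blockCoeff B ((u : G) * g), hloc _⟩ := by
        apply Subtype.ext
        simp [hβ]
      rw [heq, map_mul, map_sum, Finset.sum_congr rfl fun u _ => hb u, Finset.sum_const,
        Finset.card_univ, ← Nat.card_eq_fintype_card, nsmul_eq_mul, ← mul_assoc]
      have hinv : Blocks.red M ⟨(Nat.card O : ℂ)⁻¹, Blocks.memLocalRing_inv_natCast hM hO⟩ *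
          (Nat.card O : Blocks.Res M) = 1 := by
        rw [← map_natCast (Blocks.red M), ← map_mul, ← map_one (Blocks.red M)]
        congr 1
        apply Subtype.ext
        simp [Nat.card_pos.ne']
      rw [hinv, one_mul]
    by_contra hne
    have hnP : ¬ P χ := fun h => hne (h.2 u₀ hu₀)
    have h0 := ((indicator_redElem hlocβ hclβ P hω).2.2 B hB χ hχ).2 hnP
    rw [hred, (isBlockIdem_redElem_blockCoeff hB).mul_self] at h0
    exact (isBlockIdem_redElem_blockCoeff (M := M) hB).ne_zero h0
  · intro hker u hu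
    rw [mem_leftStab]
    ext g
    rw [hshift, coeff_redElem, coeff_redElem]
    congr 1
    simp only [Blocks.blockCoeff_eq_sum B]
    congr 1
    refine Finset.sum_congr rfl fun ξ _ => ?_
    split_ifs with hξ
    · obtain ⟨K, -, hK, hKm⟩ := CharTheory.exists_kernel (CharTheory.IsIrrCharacter.isCharacter ξ.2)
      rw [(hKm g u⁻¹ (K.inv_mem ((hK u).2 (hker u hu ξ hξ)))).2]
    · rfl

/-- The same for a block of a subgroup. -/
theorem le_leftStab_subIdem_iff (hM : IsPModular p M) (H : Subgroup G) (O : Subgroup H) [O.Normal]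
    (hO : ¬ p ∣ Nat.card O) {b : Set (IrrCharacter H)} (hb : IsPBlock M b) :
    O.map H.subtype ≤ leftStab (subIdem M H b) ↔ ∀ u ∈ O, u ∈ blockKer b := by
  rw [← le_leftStab_iff hM O hO hb, subIdem, redElem_subgroupBlockCoeff]
  constructor
  · intro h u hu
    rw [mem_leftStab]
    apply mapG_injective H.subtype_injective
    rw [map_mul]
    have := mem_leftStab.1 (h ⟨u, hu, rfl⟩)
    simpa [mapG] using this
  · rintro h _ ⟨u, hu, rfl⟩
    rw [mem_leftStab]
    have := congrArg (mapG H.subtype) (mem_leftStab.1 (h hu))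
    rw [map_mul] at this
    simpa [mapG] using this

/-- A block inducing `B` has a maximal pair which is a pair of `B`. -/
theorem exists_pair_of_inducedBlock [M.IsMaximal] (hM : IsPModular p M) {G₀ : Subgroup G}
    {B₀ : Set (IrrCharacter G₀)} {B : Set (IrrCharacter G)} (hind : IsInducedBlock M G₀ B₀ B)
    {D₀ : Subgroup G₀} (hD₀ : IsDefectGroup p M B₀ D₀)
    (hC : Subgroup.centralizer ((D₀.map G₀.subtype : Subgroup G) : Set G) ≤ G₀) :
    ∃ e₀ : MonoidAlgebra (Blocks.Res M) G,
      IsMaxPair p G₀ (subIdem M G₀ B₀) (D₀.map G₀.subtype) e₀ ∧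
        PairOf p (⊤ : Subgroup G) (redElem M (blockCoeff B)) (D₀.map G₀.subtype) e₀ := by
  classical
  haveI := Fintype.ofFinite G
  haveI := Fintype.ofFinite G₀
  haveI : CharP (Blocks.Res M) p := Blocks.charP_res hM
  haveI : IsAlgClosed (Blocks.Res M) := Blocks.isAlgClosed_res
  obtain ⟨hb₀, hB, hcong⟩ := hind
  set D := D₀.map G₀.subtype with hDdef
  have hd := (isDefectGroup_sub_iff hM hb₀).1 hD₀
  obtain ⟨e₀, he₀⟩ := exists_isMaxPair_of_isDefectIn (isBlockIdem_subIdem hb₀) hd
  refine ⟨e₀, he₀, ?_⟩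
  have hcen : cenIn G₀ D = cenIn (⊤ : Subgroup G) D := by
    rw [cenIn_top]; exact inf_eq_right.2 hC
  have hblk : IsBlockIdem (cenIn (⊤ : Subgroup G) D) e₀ := hcen ▸ he₀.1.1.2.2
  -- the restricted block coefficients
  set β : G₀ → ℂ := fun h => blockCoeff B (h : G) with hβdef
  have hloc : ∀ h, MemLocalRing M (β h) := fun h => Blocks.memLocalRing_blockCoeff hB _
  have hcl : IsClassFunction G₀ β := fun g c => by
    simp only [hβdef, Subgroup.coe_mul, Subgroup.coe_inv]
    exact Blocks.blockCoeff_conj B _ _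
  set z := locElem (M := M) β hloc hcl with hz
  set y := Blocks.classMap (Blocks.red M) z with hy
  obtain ⟨ξ, hξ⟩ := Blocks.isPBlock_nonempty hb₀
  obtain ⟨χ, hχ⟩ := Blocks.isPBlock_nonempty hB
  have hω : Blocks.omegaRes M ξ y = 1 := by
    have h1 : (∑ x, blockCoeff B x * (χ : G → ℂ) x) / (χ : G → ℂ) 1 = 1 := by
      rw [← Blocks.omega_blockIdem_of_mem hχ, Blocks.omega_eq_sum]; rfl
    have h2 : MemLocalIdeal M
        ((∑ h, β h * (ξ : G₀ → ℂ) h) / (ξ : G₀ → ℂ) 1 - 1) := by
      have h3 : (∑ h, β h * (ξ : G₀ → ℂ) h) / (ξ : G₀ → ℂ) 1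
          = ∑ x : G, blockCoeff B x *
              extendByZero G₀ (fun h => (ξ : G₀ → ℂ) h / (ξ : G₀ → ℂ) 1) x := by
        rw [Finset.sum_div]
        refine Finset.sum_bij_ne_zero (fun h _ _ => (h : G)) (fun _ _ _ => Finset.mem_univ _)
          (fun a _ _ b _ _ hab => Subtype.ext hab) (fun x _ hne => ?_) (fun h _ _ => ?_)
        · by_cases hx : x ∈ G₀
          · refine ⟨⟨x, hx⟩, Finset.mem_univ _, ?_, rfl⟩
            rw [show x = ((⟨x, hx⟩ : G₀) : G) from rfl, extendByZero,
              Subtype.val_injective.extend_apply] at hne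
            simpa [hβdef, mul_div_assoc] using hne
          · refine absurd ?_ hne
            rw [extendByZero, Function.extend_apply' _ _ _ (fun ⟨a, ha⟩ => hx (ha ▸ a.2))]
            simp
        · rw [extendByZero, Subtype.val_injective.extend_apply]
          simp [hβdef, mul_div_assoc]
      rw [h3, ← h1, Finset.sum_div, ← Finset.sum_sub_distrib]
      simp only [mul_div_assoc, ← mul_sub]
      refine BlockLocal.memLocalIdeal_sum_mul_of_classes (blockCoeff B) _
        (fun g c => Blocks.blockCoeff_conj B _ _) (Blocks.memLocalRing_blockCoeff hB) fun g _ => ?_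
      rw [Finset.sum_sub_distrib, BlockLocal.sum_conj_extend_eq_inducedCentralChar,
        BlockLocal.sum_conj_eq_centralChar (CharTheory.IsIrrCharacter.isClassFunction χ.2)]
      exact hcong ξ hξ χ hχ g
    rw [hy, Blocks.omegaRes_classMap, ← map_one (Blocks.red M), Blocks.red_eq_red_iff,
      hz, coe_omegaLoc_locElem]
    simpa using h2
  obtain ⟨w, hw, -⟩ := Blocks.exists_mul_eq_idemRes hb₀ hξ (y := y) (by rw [hω]; exact one_ne_zero)
  have hval : mapG G₀.subtype (redElem M β) * mapG G₀.subtype (w : MonoidAlgebra (Blocks.Res M) G₀)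
      = subIdem M G₀ B₀ := by
    rw [← map_mul, ← coe_classMap_red_locElem β hloc hcl, ← Subalgebra.coe_mul, hw,
      ← redElem_blockCoeff hb₀, ← redElem_subgroupBlockCoeff]
  have hDp : IsPGroup p D := he₀.1.1.1
  have hbfix : redElem M (blockCoeff B) ∈ fixedBy (Blocks.Res M) (⊤ : Subgroup G) :=
    (mem_ctr.1 (isBlockIdem_redElem_blockCoeff hB).mem).2
  have htr : mapG G₀.subtype (redElem M β) = trunc G₀ (redElem M (blockCoeff B)) := by
    ext g
    by_cases hg : g ∈ G₀
    · obtain ⟨h, rfl⟩ : ∃ h : G₀, G₀.subtype h = g := ⟨⟨g, hg⟩, rfl⟩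
      rw [coeff_mapG_apply G₀.subtype_injective, coeff_trunc_of_mem hg, coeff_redElem, coeff_redElem]
      rfl
    · rw [coeff_trunc_of_not_mem hg, coeff_mapG_of_not_mem _ (by rwa [Subgroup.range_subtype])]
  have hwfix : mapG G₀.subtype (w : MonoidAlgebra (Blocks.Res M) G₀) ∈ fixedBy (Blocks.Res M) D := by
    have h1 := (mapG_mem_fixedBy_iff G₀.subtype_injective (L := (⊤ : Subgroup G₀))).2
      (mem_ctr.1 (mem_classAlg_iff_ctr.1 w.2)).2
    exact fixedBy_anti (Subgroup.map_mono le_top) h1
  have hafix : mapG G₀.subtype (redElem M β) ∈ fixedBy (Blocks.Res M) D := by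
    rw [htr]
    exact trunc_mem_fixedBy (he₀.1.1.2.1.trans Subgroup.le_normalizer)
      (fixedBy_anti le_top hbfix)
  have h1 := congrArg (brau D) hval
  rw [brau, trunc_centralizer_mul hDp hafix hwfix] at h1
  have hCG : Subgroup.centralizer (D : Set G) ≤ G₀ := hC
  rw [htr, trunc_trunc hCG] at h1
  set Bb := brau D (redElem M (blockCoeff B)) with hBb
  set u := brau D (mapG G₀.subtype (w : MonoidAlgebra (Blocks.Res M) G₀))
  have h2 : Bb * u * e₀ = e₀ := by
    rw [show Bb * u = brau D (subIdem M G₀ B₀) from h1]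
    exact he₀.1.2
  have hBB : Bb * Bb = Bb :=
    brau_idem hDp (fixedBy_anti le_top hbfix) (isBlockIdem_redElem_blockCoeff hB).mul_self
  refine ⟨⟨hDp, le_top, hblk⟩, ?_⟩
  calc Bb * e₀ = Bb * (Bb * u * e₀) := by rw [h2]
    _ = Bb * Bb * u * e₀ := by simp only [mul_assoc]
    _ = e₀ := by rw [hBB, h2]

/-- The maximal pair above the Brauer correspondent. -/
theorem exists_maxPair_correspondent [M.IsMaximal] (hM : IsPModular p M)
    {B : Set (IrrCharacter G)} {D : Subgroup G} (hBD : IsDefectGroup p M B D)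
    {B₁ : Set (IrrCharacter (Subgroup.normalizer (D : Set G)))}
    (hB₁ : IsInducedBlock M (Subgroup.normalizer (D : Set G)) B₁ B)
    (hB₁D : IsDefectGroup p M B₁ (D.subgroupOf (Subgroup.normalizer (D : Set G)))) :
    ∃ e : MonoidAlgebra (Blocks.Res M) G,
      IsMaxPair p (⊤ : Subgroup G) (redElem M (blockCoeff B)) D e ∧
        PairOf p (Subgroup.normalizer (D : Set G))
          (subIdem M (Subgroup.normalizer (D : Set G)) B₁) D e := by
  haveI : CharP (Blocks.Res M) p := Blocks.charP_res hM
  haveI : IsAlgClosed (Blocks.Res M) := Blocks.isAlgClosed_res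
  set N := Subgroup.normalizer (D : Set G)
  have hmap : (D.subgroupOf N).map N.subtype = D := by
    rw [Subgroup.subgroupOf_map_subtype]
    exact inf_eq_left.2 Subgroup.le_normalizer
  obtain ⟨e, he, hpair⟩ := exists_pair_of_inducedBlock hM hB₁ hB₁D
    (by rw [hmap]; exact Subgroup.centralizer_le_normalizer _)
  rw [hmap] at he hpair
  have hb := isBlockIdem_redElem_blockCoeff (M := M) hB₁.2.1
  obtain ⟨e', he'⟩ := exists_isMaxPair_of_isDefectIn hb ((isDefectGroup_iff hM hB₁.2.1).1 hBD)
  exact ⟨e, hpair.isMaxPair_of_card fun R g hR => he'.card_le hb hR, he.1⟩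

/-- If the core of `C(S)` fixes `g`, for a pair `(S, g)` of a block `b` of `K ≥ C(S)`, then the
core of `K` fixes `b`. -/
theorem core_le_leftStab_block {k : Type*} [Field k] [CharP k p] {π : Set ℕ} (hπ : p ∈ π)
    {K S : Subgroup G} (hCK : Subgroup.centralizer (S : Set G) ≤ K)
    {b g : MonoidAlgebra k G} (hb : IsBlockIdem K b) (h : PairOf p K b S g)
    (hg : core π S ≤ leftStab g) : piCoreOf {q | q ∉ π} K ≤ leftStab b := by
  classical
  set O := piCoreOf {q | q ∉ π} K with hOdef
  haveI := Fintype.ofFinite O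
  have hOp : ¬ p ∣ Nat.card O := not_dvd_card_piCoreOf hπ _
  have hKO : K ≤ Subgroup.normalizer (O : Set G) := le_normalizer_piCoreOf _ _
  have hOctr : avg k O ∈ ctr k K :=
    mem_ctr.2 ⟨supp_mono (piCoreOf_le _ _) (avg_mem_supp O), fun c hc => conjA_avg (hKO hc)⟩
  have hii := avg_mul_self (k := k) (cast_card_ne_zero hOp)
  rcases hb.2.2.2 _ hOctr hii with h0 | h0
  · exfalso
    obtain ⟨⟨hSp, hSK, hgb⟩, hbg⟩ := h
    set W := O ⊓ Subgroup.centralizer (S : Set G) with hWdef
    haveI := Fintype.ofFinite W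
    have hWp : ¬ p ∣ Nat.card W := fun h => hOp (h.trans (Subgroup.card_dvd_of_le inf_le_left))
    have hWcore : W ≤ core π S := by
      refine le_piCoreOf inf_le_right ?_ (piSubgroup_mono (piSubgroup_piCoreOf _ _) inf_le_left)
      intro c hc
      refine Subgroup.mem_normalizer_iff.2 fun x => ?_
      have h2 := Subgroup.mem_normalizer_iff.1 (hKO (hCK hc)) x
      have h3 := Subgroup.mem_normalizer_iff.1
        (Subgroup.le_normalizer hc : c ∈ Subgroup.normalizer (Subgroup.centralizer (S : Set G) : Set G)) x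
      simp only [hWdef, Subgroup.mem_inf, h2, h3]
    have hfix : avg k O ∈ fixedBy k S := fun s hs => conjA_avg (hKO (hSK hs))
    have hbS : b ∈ fixedBy k S := fixedBy_anti hSK (mem_ctr.1 hb.mem).2
    have h1 : brau S (avg k O * b) = 0 := by
      rw [ctr_commute hOctr hb.mem, h0, map_zero]
    rw [brau, trunc_centralizer_mul hSp hfix hbS] at h1
    have h2 : brau S (avg k O) * (brau S b * g) = 0 := by
      rw [← mul_assoc]
      exact (congrArg (· * g) h1).trans (zero_mul g)
    rw [hbg, brau_avg hSp (hSK.trans hKO) hOp,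
      (avg_mul_eq_iff (cast_card_ne_zero hWp)).2 (hWcore.trans hg)] at h2
    exact hgb.ne_zero h2
  · rw [← avg_mul_eq_iff (cast_card_ne_zero hOp), ctr_commute hOctr hb.mem]
    exact h0

/-- The core of `N(D)` lies in the core of `C(D)`. -/
theorem piCoreOf_normalizer_le {π : Set ℕ} (hπ : p ∈ π) {D : Subgroup G} (hD : IsPGroup p D) :
    piCoreOf {q | q ∉ π} (Subgroup.normalizer (D : Set G)) ≤ core π D := by
  set N := Subgroup.normalizer (D : Set G) with hN
  set O := piCoreOf {q | q ∉ π} N with hO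
  have hON : O ≤ N := piCoreOf_le _ _
  have hNO : N ≤ Subgroup.normalizer (O : Set G) := le_normalizer_piCoreOf _ _
  refine le_piCoreOf ?_ ((Subgroup.centralizer_le_normalizer _).trans hNO) (piSubgroup_piCoreOf _ _)
  intro u hu
  rw [Subgroup.mem_centralizer_iff]
  intro d hd
  have h1 : u * d * u⁻¹ * d⁻¹ ∈ D :=
    D.mul_mem ((Subgroup.mem_normalizer_iff.1 (hON hu) d).1 hd) (D.inv_mem hd)
  have h2 : u * d * u⁻¹ * d⁻¹ ∈ O := by
    have := (Subgroup.mem_normalizer_iff.1 (hNO (Subgroup.le_normalizer hd : d ∈ N)) u⁻¹).1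
      (O.inv_mem hu)
    simpa [mul_assoc] using O.mul_mem hu this
  have hbot : O ⊓ D = ⊥ := by
    refine Subgroup.eq_bot_of_card_eq _ ?_
    obtain ⟨j, hj⟩ := IsPGroup.iff_card.1 (hD.to_le (inf_le_right : O ⊓ D ≤ D))
    rcases Nat.eq_zero_or_pos j with rfl | hj0
    · simpa using hj
    · exfalso
      exact not_dvd_card_piCoreOf (p := p) hπ N
        ((hj ▸ dvd_pow_self p hj0.ne').trans (Subgroup.card_dvd_of_le inf_le_left))
  have h3 : u * d * u⁻¹ * d⁻¹ = 1 := Subgroup.mem_bot.1 (hbot ▸ ⟨h2, h1⟩)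
  calc d * u = 1 * (d * u) := (one_mul _).symm
    _ = u * d := by rw [← h3]; group

/-- The kernel hypothesis on the Brauer correspondent, read on the maximal pair. -/
theorem core_le_leftStab_of_correspondent (hM : IsPModular p M) {π : Set ℕ} (hπ : p ∈ π)
    {D : Subgroup G} {B₁ : Set (IrrCharacter (Subgroup.normalizer (D : Set G)))}
    (hB₁ : IsPBlock M B₁) {e : MonoidAlgebra (Blocks.Res M) G}
    (he : PairOf p (Subgroup.normalizer (D : Set G))
      (subIdem M (Subgroup.normalizer (D : Set G)) B₁) D e)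
    (hker : ∀ n : Subgroup.normalizer (D : Set G),
      n ∈ piCore {q | q ∉ π} (Subgroup.normalizer (D : Set G)) → n ∈ blockKer B₁) :
    core π D ≤ leftStab e := by
  haveI : CharP (Blocks.Res M) p := Blocks.charP_res hM
  have hN : core π D ≤ piCoreOf {q | q ∉ π} (Subgroup.normalizer (D : Set G)) :=
    le_piCoreOf ((piCoreOf_le _ _).trans (Subgroup.centralizer_le_normalizer _))
      ((normalizer_le_normalizer_cen D).trans (normalizer_le_normalizer_piCoreOf _ _))
      (piSubgroup_piCoreOf _ _)
  have hfix : piCoreOf {q | q ∉ π} (Subgroup.normalizer (D : Set G))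
      ≤ leftStab (subIdem M (Subgroup.normalizer (D : Set G)) B₁) := by
    refine (le_leftStab_subIdem_iff hM _ _ ?_ hB₁).2 fun u hu => hker u hu
    exact fun h => piSubgroup_piCore (π := {q | q ∉ π}) p hp.out h hπ
  have hb := isBlockIdem_subIdem (M := M) hB₁
  have hbrau := brau_eq_self he.1.1 Subgroup.le_normalizer le_rfl hb.mem hb.mul_self
  intro u hu
  rw [mem_leftStab]
  conv_rhs => rw [← he.2, hbrau, ← mem_leftStab.1 (hfix (hN hu))]
  conv_lhs => rw [← he.2, hbrau]
  rw [mul_assoc]

/-- The maximal-pair property spreads to all pairs. -/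
theorem core_le_leftStab_of_pairOf [M.IsMaximal] (hM : IsPModular p M) {π : Set ℕ} (hπ : p ∈ π)
    {B : Set (IrrCharacter G)} (hB : IsPBlock M B) {D : Subgroup G}
    {e : MonoidAlgebra (Blocks.Res M) G}
    (he : IsMaxPair p (⊤ : Subgroup G) (redElem M (blockCoeff B)) D e)
    (hfix : core π D ≤ leftStab e) {R : Subgroup G} {f : MonoidAlgebra (Blocks.Res M) G}
    (hf : PairOf p (⊤ : Subgroup G) (redElem M (blockCoeff B)) R f) :
    core π R ≤ leftStab f := by
  haveI : CharP (Blocks.Res M) p := Blocks.charP_res hM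
  haveI : IsAlgClosed (Blocks.Res M) := Blocks.isAlgClosed_res
  obtain ⟨c, -, hle⟩ := hf.exists_conj_le (isBlockIdem_redElem_blockCoeff hB) he
  have h := core_le_leftStab_conj (π := π) c⁻¹ (core_le_leftStab_of_pairLE hπ hle hfix)
  rwa [← cj_mul, inv_mul_cancel, cj_one, ← conjA_mul, inv_mul_cancel, conjA_one] at h

end Blocks

end CfsgLib.RealChar.PiKernel
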