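import Cfsg.Agent.Lib.RealChar.Indicator
import Cfsg.Agent.Lib.CharTheory.Decomp

/-!
# Real forms of representations of indicator one
-/

set_option autoImplicit false
set_option linter.style.haveILetI false

open scoped ComplexConjugate ComplexOrder
open Matrix

namespace CfsgLib.RealChar

variable {G : Type*} [Group G] [Fintype G] {n : ℕ}

/-- The sum of `X Xᴴ` is a positive definite invariant Hermitian form. -/
theorem exists_posDef_invariant (ρ : Representation ℂ G (Fin n → ℂ)) :
    ∃ H : Matrix (Fin n) (Fin n) ℂ, H.PosDef ∧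
      ∀ g, toMatRep ρ g * H * (toMatRep ρ g)ᴴ = H := by
  classical
  refine ⟨∑ g : G, toMatRep ρ g * (toMatRep ρ g)ᴴ, ?_, fun g => ?_⟩
  · rw [← Finset.add_sum_erase _ _ (Finset.mem_univ (1 : G))]
    refine Matrix.PosDef.add_posSemidef ?_ ?_
    · simp only [map_one, Matrix.conjTranspose_one, Matrix.one_mul]
      exact Matrix.PosDef.one
    · exact Matrix.posSemidef_sum _ fun i _ => Matrix.posSemidef_self_mul_conjTranspose _
  · rw [Finset.mul_sum, Finset.sum_mul]
    exact Fintype.sum_equiv (Equiv.mulLeft g) _ _ fun h => by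
      simp [Matrix.mul_assoc, Matrix.conjTranspose_mul]

omit [Fintype G] in
theorem exists_scalar_of_commute (ρ : Representation ℂ G (Fin n → ℂ)) [ρ.IsIrreducible]
    {T : Matrix (Fin n) (Fin n) ℂ} (h : ∀ g, T * toMatRep ρ g = toMatRep ρ g * T) :
    ∃ c : ℂ, T = c • 1 := by
  obtain ⟨c, hc⟩ := CfsgLib.CharTheory.exists_smul_of_commute ρ (Matrix.toLin' T) fun g => by
    rw [← toLin'_toMatRep ρ g, ← Matrix.toLin'_mul, h, Matrix.toLin'_mul]
  exact ⟨c, Matrix.toLin'.injective (by rw [hc, map_smul, Matrix.toLin'_one])⟩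

/-- A representation with a nondegenerate symmetric invariant form has a real form. -/
theorem exists_real_form (ρ : Representation ℂ G (Fin n → ℂ)) [ρ.IsIrreducible]
    {B : Matrix (Fin n) (Fin n) ℂ} (hB : B ∈ (formRep ρ).invariants) (hB0 : B ≠ 0) (hsym : Bᵀ = B) :
    ∃ σ : Representation ℝ G (Fin n → ℝ),
      ∀ g, ((LinearMap.trace ℝ (Fin n → ℝ) (σ g) : ℝ) : ℂ) = ρ.character g := by
  classical
  set X := toMatRep ρ
  obtain ⟨H, hH, hHinv⟩ := exists_posDef_invariant ρ
  have hBd : IsUnit B.det := (det_form_ne_zero hB hB0).isUnit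
  have hn : Nonempty (Fin n) := by
    by_contra h
    rw [not_nonempty_iff] at h
    exact hB0 (Matrix.ext fun i => isEmptyElim i)
  set K : Matrix (Fin n) (Fin n) ℂ := Hᵀ with hKdef
  have hK : K.PosDef := hH.transpose
  have hKd : IsUnit K.det := (Matrix.isUnit_iff_isUnit_det K).1 hK.isUnit
  set S := B * K⁻¹ with hS
  clear_value S
  set C : Matrix (Fin n) (Fin n) ℂ →+* Matrix (Fin n) (Fin n) ℂ := (starRingEnd ℂ).mapMatrix with hC
  have hCH : C H = K := by
    rw [hKdef]
    ext i j
    exact hH.1.apply j i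
  -- `X S = S conj X`
  have hXS : ∀ g, X g * S = S * C (X g) := by
    intro g
    have hKinv : C (X g) * K * (X g)ᵀ = K := by
      have h := congrArg C (hHinv g)
      rw [map_mul, map_mul, hCH] at h
      rwa [show C (X g)ᴴ = (X g)ᵀ from Matrix.ext fun i j => by simp [C, Matrix.conjTranspose_apply]] at h
    have hXX : (X g)ᵀ * (X g⁻¹)ᵀ = 1 := by
      rw [← Matrix.transpose_mul, ← map_mul, inv_mul_cancel, map_one, Matrix.transpose_one]
    have h1 : K * (X g⁻¹)ᵀ = C (X g) * K := by
      conv_lhs => rw [← hKinv]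
      rw [Matrix.mul_assoc, hXX, Matrix.mul_one]
    have h2 : (X g⁻¹)ᵀ * K⁻¹ = K⁻¹ * C (X g) := by
      calc (X g⁻¹)ᵀ * K⁻¹ = K⁻¹ * (K * (X g⁻¹)ᵀ) * K⁻¹ := by
            rw [← Matrix.mul_assoc K⁻¹, Matrix.nonsing_inv_mul K hKd, Matrix.one_mul]
        _ = K⁻¹ * C (X g) := by
            rw [h1, Matrix.mul_assoc, Matrix.mul_assoc, Matrix.mul_nonsing_inv K hKd, Matrix.mul_one]
    rw [hS, ← Matrix.mul_assoc, form_intertwines hB, Matrix.mul_assoc, h2, ← Matrix.mul_assoc]
  -- the square of the antilinear map is a positive scalar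
  have hCC : ∀ A : Matrix (Fin n) (Fin n) ℂ, C (C A) = A := fun A => Matrix.ext fun i j => by
    simp [C]
  obtain ⟨c, hc⟩ := exists_scalar_of_commute ρ (T := S * C S) fun g => by
    rw [← Matrix.mul_assoc, hXS g, Matrix.mul_assoc, Matrix.mul_assoc]
    congr 1
    have := congrArg C (hXS g)
    rw [map_mul, map_mul, hCC] at this
    exact this.symm
  have hCK : C K⁻¹ = H⁻¹ := by
    have hCK' : C K = H := by rw [← hCH, hCC]
    refine (Matrix.inv_eq_right_inv ?_).symm
    rw [← hCK', ← map_mul, Matrix.mul_nonsing_inv K hKd, map_one]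
  have hHd : IsUnit H.det := (Matrix.isUnit_iff_isUnit_det H).1 hH.isUnit
  have hCB : C B = Bᴴ := by
    rw [Matrix.conjTranspose, hsym]
    ext i j
    simp [C]
  have hpos : B * K⁻¹ * Bᴴ = c • H := by
    have h : S * C S * H = c • H := by rw [hc, Matrix.smul_mul, Matrix.one_mul]
    rw [← h, hS, map_mul, hCB, hCK, Matrix.mul_assoc (B * K⁻¹), Matrix.mul_assoc Bᴴ,
      Matrix.nonsing_inv_mul H hHd, Matrix.mul_one]
  have hP : (B * K⁻¹ * Bᴴ).PosDef := hK.inv.mul_mul_conjTranspose_same
    (Matrix.vecMul_injective_iff_isUnit.2 ((Matrix.isUnit_iff_isUnit_det B).2 hBd))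
  have hcpos : (0 : ℂ) < c := by
    have h1 := hP.trace_pos
    rw [hpos, Matrix.trace_smul, smul_eq_mul] at h1
    exact pos_of_mul_pos_left h1 hH.trace_pos.le
  obtain ⟨hcre, hcim⟩ := Complex.pos_iff.1 hcpos
  set r : ℝ := (Real.sqrt c.re)⁻¹
  set S' : Matrix (Fin n) (Fin n) ℂ := (r : ℂ) • S with hS'
  have hS'1 : S' * C S' = 1 := by
    have hCr : C S' = (r : ℂ) • C S := Matrix.ext fun i j => by simp [C, S']
    rw [hCr, hS', Matrix.smul_mul, Matrix.mul_smul, smul_smul, hc, smul_smul]
    have hcc : c = ((c.re : ℝ) : ℂ) := Complex.ext rfl hcim.symm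
    rw [hcc, ← Complex.ofReal_mul, ← Complex.ofReal_mul]
    have : r * r * c.re = 1 := by
      rw [← mul_inv, Real.mul_self_sqrt hcre.le, inv_mul_cancel₀ hcre.ne']
    rw [this, Complex.ofReal_one, one_smul]
  have hXS' : ∀ g, X g * S' = S' * C (X g) := fun g => by
    rw [hS', Matrix.mul_smul, hXS, Matrix.smul_mul]
  -- a matrix `Q` with `S' conj Q = Q`
  obtain ⟨μ, hμ⟩ : ∃ μ : ℂ, IsUnit ((conj μ) • S' + μ • (1 : Matrix (Fin n) (Fin n) ℂ)) := by
    by_contra h
    push Not at h
    have hroot : ∀ k : ℕ, S'.charpoly.IsRoot (-(1 + k * Complex.I) / conj (1 + k * Complex.I)) := by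
      intro k
      have h0 : conj (1 + (k : ℂ) * Complex.I) ≠ 0 := fun e => by
        have := congrArg Complex.re e; simp at this
      rw [Polynomial.IsRoot, Matrix.eval_charpoly]
      by_contra hne
      refine h (1 + k * Complex.I) ((Matrix.isUnit_iff_isUnit_det _).2 ?_)
      rw [show conj (1 + (k : ℂ) * Complex.I) • S' +
        (1 + (k : ℂ) * Complex.I) • (1 : Matrix (Fin n) (Fin n) ℂ) =
        (-conj (1 + (k : ℂ) * Complex.I)) •
          (Matrix.scalar (Fin n) (-(1 + k * Complex.I) / conj (1 + k * Complex.I)) - S') by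
        refine Matrix.ext fun i j => ?_
        by_cases hij : i = j
        · subst hij
          simp only [Matrix.add_apply, Matrix.smul_apply, Matrix.sub_apply, Matrix.scalar_apply,
            Matrix.diagonal_apply_eq, Matrix.one_apply_eq, smul_eq_mul]
          field_simp
          ring
        · simp [hij]
          ring, Matrix.det_smul]
      exact ((isUnit_iff_ne_zero.2 (neg_ne_zero.2 h0)).pow _).mul (isUnit_iff_ne_zero.2 hne)
    have hinj : Function.Injective fun k : ℕ =>
        -(1 + (k : ℂ) * Complex.I) / conj (1 + (k : ℂ) * Complex.I) := by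
      intro a b e
      have ha : conj (1 + (a : ℂ) * Complex.I) ≠ 0 := fun e => by
        have := congrArg Complex.re e; simp at this
      have hb : conj (1 + (b : ℂ) * Complex.I) ≠ 0 := fun e => by
        have := congrArg Complex.re e; simp at this
      simp only [div_eq_div_iff ha hb] at e
      simp only [map_add, map_one, map_mul, Complex.conj_natCast, Complex.conj_I] at e
      have := congrArg Complex.im e
      simp at this
      exact_mod_cast (show (a : ℝ) = b by linarith)
    exact Polynomial.ne_zero_of_degree_gt (n := ⊥) (by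
      rw [Matrix.charpoly_degree_eq_dim]; simp) (Polynomial.eq_zero_of_infinite_isRoot _
      ((Set.infinite_range_of_injective hinj).mono (Set.range_subset_iff.2 hroot)))
  set Q := (conj μ) • S' + μ • (1 : Matrix (Fin n) (Fin n) ℂ) with hQdef
  have hQd : IsUnit Q.det := (Matrix.isUnit_iff_isUnit_det Q).1 hμ
  have hSQ : S' * C Q = Q := by
    have : C Q = μ • C S' + conj μ • 1 := Matrix.ext fun i j => by
      by_cases hij : i = j <;> simp [C, Q, hij]
    rw [this, Matrix.mul_add, Matrix.mul_smul, Matrix.mul_smul, hS'1, Matrix.mul_one, hQdef, add_comm]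
  have hCQd : IsUnit (C Q).det := by
    rw [hC, RingHom.mapMatrix_apply, ← RingHom.mapMatrix_apply, ← RingHom.map_det]
    exact hQd.map _
  -- the conjugated matrices are real
  have hreal : ∀ g, C (Q⁻¹ * X g * Q) = Q⁻¹ * X g * Q := by
    intro g
    have h1 : X g * Q = Q * ((C Q)⁻¹ * C (X g) * C Q) := by
      calc X g * Q = X g * S' * C Q := by rw [Matrix.mul_assoc, hSQ]
        _ = S' * (C Q * (C Q)⁻¹) * C (X g) * C Q := by
            rw [hXS', Matrix.mul_nonsing_inv _ hCQd, Matrix.mul_one]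
        _ = _ := by
            rw [← Matrix.mul_assoc S', hSQ, ← Matrix.mul_assoc, ← Matrix.mul_assoc]
    have h2 : C Q⁻¹ = (C Q)⁻¹ := (Matrix.inv_eq_right_inv (by
      rw [← map_mul, Matrix.mul_nonsing_inv Q hQd, map_one])).symm
    have h2' : C (C Q)⁻¹ = Q⁻¹ := by rw [← h2, hCC]
    rw [Matrix.mul_assoc Q⁻¹, h1, ← Matrix.mul_assoc Q⁻¹, Matrix.nonsing_inv_mul Q hQd, Matrix.one_mul,
      map_mul, map_mul, hCC, hCC, h2', Matrix.mul_assoc Q⁻¹, h1, ← Matrix.mul_assoc Q⁻¹,
      Matrix.nonsing_inv_mul Q hQd, Matrix.one_mul]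
  set R : G → Matrix (Fin n) (Fin n) ℝ := fun g => (Q⁻¹ * X g * Q).map Complex.re with hR
  have hRmap : ∀ g, (Complex.ofRealHom.mapMatrix (R g)) = Q⁻¹ * X g * Q := fun g => Matrix.ext fun i j => by
    have := congrFun (congrFun (hreal g) i) j
    exact (Complex.conj_eq_iff_re.1 this)
  have hRinj : Function.Injective (Complex.ofRealHom.mapMatrix (m := Fin n)) :=
    Matrix.map_injective Complex.ofReal_injective
  let σ : Representation ℝ G (Fin n → ℝ) :=
    { toFun := fun g => Matrix.toLin' (R g)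
      map_one' := by
        rw [hRinj (show Complex.ofRealHom.mapMatrix (R 1) = Complex.ofRealHom.mapMatrix 1 by
          rw [hRmap, map_one, map_one, Matrix.mul_one, Matrix.nonsing_inv_mul Q hQd]), Matrix.toLin'_one]
        rfl
      map_mul' := fun a b => by
        rw [hRinj (show Complex.ofRealHom.mapMatrix (R (a * b)) = Complex.ofRealHom.mapMatrix (R a * R b) by
          rw [map_mul, hRmap, hRmap, hRmap, map_mul]
          simp only [Matrix.mul_assoc]
          rw [← Matrix.mul_assoc Q Q⁻¹, Matrix.mul_nonsing_inv Q hQd, Matrix.one_mul]),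
          Matrix.toLin'_mul]
        rfl }
  refine ⟨σ, fun g => ?_⟩
  show (((LinearMap.trace ℝ _) (Matrix.toLin' (R g)) : ℝ) : ℂ) = _
  rw [Matrix.trace_toLin'_eq, ← trace_toMatRep]
  have h5 : (Q⁻¹ * X g * Q).trace = (X g).trace := by
    rw [Matrix.trace_mul_comm, ← Matrix.mul_assoc, Matrix.mul_nonsing_inv Q hQd, Matrix.one_mul]
  rw [← h5, ← hRmap]
  exact (AddMonoidHom.map_trace Complex.ofRealHom.toAddMonoidHom (R g))

/-- Indicator one is equivalent to realisability over the reals. -/
theorem fsIndicator_eq_one_iff_real (χ : G → ℂ) (hχ : Cfsg.IsIrrCharacter G χ) :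
    fsIndicator χ = 1 ↔ ∃ (n : ℕ) (σ : Representation ℝ G (Fin n → ℝ)),
      ∀ g : G, ((LinearMap.trace ℝ (Fin n → ℝ) (σ g) : ℝ) : ℂ) = χ g := by
  constructor
  · intro h
    obtain ⟨n, ρ, hρ, rfl⟩ := hχ
    have hreal : ∀ g, (ρ.character g).im = 0 := by
      by_contra hn
      push Not at hn
      rw [fsIndicator_eq_zero_of_not_real ρ hn] at h
      exact one_ne_zero h.symm
    obtain ⟨B, hB, hB0⟩ := exists_form_of_real ρ hreal
    obtain ⟨c, -, hc, hfs⟩ := fsIndicator_of_form ρ hB hB0
    rw [h] at hfs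
    subst hfs
    rw [one_smul] at hc
    obtain ⟨σ, hσ⟩ := exists_real_form ρ hB hB0 hc
    exact ⟨n, σ, hσ⟩
  · rintro ⟨n, σ, hσ⟩
    let A : G →* Matrix (Fin n) (Fin n) ℂ :=
      (Complex.ofRealHom.mapMatrix.toMonoidHom).comp
        ((LinearMap.toMatrixAlgEquiv' (R := ℝ) (n := Fin n)).toAlgHom.toRingHom.toMonoidHom.comp σ)
    let ρ : Representation ℂ G (Fin n → ℂ) :=
      (Matrix.toLinAlgEquiv' (R := ℂ) (n := Fin n)).toAlgHom.toRingHom.toMonoidHom.comp A
    have hA : ∀ g, toMatRep ρ g = A g := fun g => LinearMap.toMatrix'_toLin' (A g)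
    have hchar : ρ.character = χ := funext fun g => by
      rw [← trace_toMatRep, hA, ← hσ g]
      have h1 := AddMonoidHom.map_trace Complex.ofRealHom.toAddMonoidHom (LinearMap.toMatrix' (σ g))
      rw [LinearMap.trace_eq_matrix_trace ℝ (Pi.basisFun ℝ (Fin n)), LinearMap.toMatrix_eq_toMatrix']
      exact h1.symm
    obtain ⟨n', ρ', hρ', hρ'c⟩ := id hχ
    obtain ⟨e⟩ := CfsgLib.CharTheory.nonempty_equiv_of_character_eq ρ' ρ (hρ'c.trans hchar.symm)
    haveI : ρ.IsIrreducible := CfsgLib.CharTheory.isIrreducible_of_equiv e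
    obtain ⟨H, hH, hHinv⟩ := exists_posDef_invariant ρ
    have hreal : ∀ g, (toMatRep ρ g).map conj = toMatRep ρ g := fun g => by
      rw [hA]; exact Matrix.ext fun i j => Complex.conj_ofReal _
    set B : Matrix (Fin n) (Fin n) ℂ := ∑ g : G, toMatRep ρ g * (toMatRep ρ g)ᵀ with hBdef
    have hB : B ∈ (formRep ρ).invariants := by
      rw [mem_formInvariants]
      intro g
      rw [hBdef, Finset.mul_sum, Finset.sum_mul]
      exact Fintype.sum_equiv (Equiv.mulLeft g) _ _ fun h => by
        simp [Matrix.mul_assoc, Matrix.transpose_mul]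
    have hsym : Bᵀ = B := by
      rw [hBdef, Matrix.transpose_sum]
      exact Finset.sum_congr rfl fun g _ => by rw [Matrix.transpose_mul, Matrix.transpose_transpose]
    have hn : 0 < n := by
      obtain ⟨d, hd, hd'⟩ := CfsgLib.CharTheory.exists_degree_of_isIrr hχ
      rcases Nat.eq_zero_or_pos n with e0 | e0
      · subst e0
        exfalso
        refine CfsgLib.CharTheory.apply_one_ne_zero_of_isIrr hχ ?_
        rw [← hchar, ← trace_toMatRep]
        simp
      · exact e0
    have hB0 : B ≠ 0 := by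
      have hBconj : B = ∑ g : G, toMatRep ρ g * (toMatRep ρ g)ᴴ := by
        refine Finset.sum_congr rfl fun g _ => ?_
        congr 1
        exact Matrix.ext fun i j => (congrFun (congrFun (hreal g) j) i).symm
      haveI : Nonempty (Fin n) := ⟨⟨0, hn⟩⟩
      have hP : B.PosDef := by
        classical
        rw [hBconj, ← Finset.add_sum_erase _ _ (Finset.mem_univ (1 : G))]
        refine Matrix.PosDef.add_posSemidef ?_ ?_
        · simp only [map_one, Matrix.conjTranspose_one, Matrix.one_mul]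
          exact Matrix.PosDef.one
        · exact Matrix.posSemidef_sum _ fun i _ => Matrix.posSemidef_self_mul_conjTranspose _
      intro e
      have := hP.trace_pos
      simp [e] at this
    obtain ⟨c, -, hc, hfs⟩ := fsIndicator_of_form ρ hB hB0
    rw [← hchar, hfs]
    rw [hsym] at hc
    have : (c - 1) • B = 0 := by rw [sub_smul, one_smul, ← hc, sub_self]
    exact sub_eq_zero.1 ((smul_eq_zero.1 this).resolve_right hB0)

end CfsgLib.RealChar
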